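import Cfsg.Agent.H4.NmA

/-! Maximality of stabilisers of orthogonal decompositions of symplectic spaces. -/

set_option autoImplicit false

namespace H4

open Module

namespace Form

variable {F : Type*} [Field F] {K : Kind F} {V : Type*} [AddCommGroup V] [Module F V] {t : ℕ}

/-- An orthogonal decomposition with its projections. -/
structure ODec (f : Form K V) (D : Fin t → Submodule F V) (p : Fin t → V →ₗ[F] V) : Prop where
  mem : ∀ i v, p i v ∈ D i
  sum : ∀ v, ∑ i, p i v = v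
  ne : ∀ i j, i ≠ j → ∀ v ∈ D j, p i v = 0
  orth : ∀ i j, i ≠ j → ∀ x ∈ D i, ∀ y ∈ D j, f.B x y = 0
  nd : ∀ i, f.NDOn (D i)

namespace ODec
variable {f : Form K V} {D : Fin t → Submodule F V} {p : Fin t → V →ₗ[F] V} (h : f.ODec D p)
include h

lemma eq_of {i : Fin t} {v : V} (hv : ∀ j, j ≠ i → p j v = 0) : p i v = v := by
  conv_rhs => rw [← h.sum v, Finset.sum_eq_single i (fun j _ hj => hv j hj) (by simp)]

lemma self {i : Fin t} {v : V} (hv : v ∈ D i) : p i v = v := h.eq_of fun j hj => h.ne j i hj v hv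

lemma pp (i : Fin t) (v : V) : p i (p i v) = p i v := h.self (h.mem i v)

lemma pp' {i j : Fin t} (e : i ≠ j) (v : V) : p i (p j v) = 0 := h.ne i j e _ (h.mem j v)

lemma B {i : Fin t} {x : V} (hx : x ∈ D i) (y : V) : f.B x y = f.B x (p i y) := by
  conv_lhs => rw [← h.sum y, map_sum, Finset.sum_eq_single i
    (fun j _ hj => h.orth i j hj.symm x hx _ (h.mem j y)) (by simp)]

lemma exists_ne {v : V} (hv : v ≠ 0) : ∃ i, p i v ≠ 0 := by
  by_contra hc
  push Not at hc
  exact hv (by rw [← h.sum v]; simp [hc])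

lemma exists_mem {v : V} (i : Fin t) (hv : ∀ j l, j ≠ l → p j v ≠ 0 → p l v = 0) :
    ∃ j, v ∈ D j := by
  by_cases h0 : v = 0
  · exact ⟨i, h0 ▸ (D i).zero_mem⟩
  obtain ⟨j, hj⟩ := h.exists_ne h0
  exact ⟨j, h.eq_of (fun l e => hv j l e.symm hj) ▸ h.mem j v⟩

lemma exists_two {g : V ≃ₗ[F] V} {i : Fin t} (hg : ∀ j, ∃ v ∈ D i, g v ∉ D j) :
    ∃ v ∈ D i, ∃ j l, j ≠ l ∧ p j (g v) ≠ 0 ∧ p l (g v) ≠ 0 := by
  by_contra hc
  push Not at hc
  obtain ⟨v, hv, e1⟩ := hg i
  obtain ⟨j, hj⟩ := h.exists_mem i (hc v hv)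
  obtain ⟨w, hw, e2⟩ := hg j
  obtain ⟨l, hl⟩ := h.exists_mem i (hc w hw)
  have e : j ≠ l := fun e => e2 (e ▸ hl)
  have := hc _ (add_mem hv hw) j l e (by
    rw [map_add, map_add, h.self hj, h.ne j l e _ hl, add_zero]
    exact fun e => e1 (e ▸ (D i).zero_mem))
  rw [map_add, map_add, h.self hl, h.ne l j e.symm _ hj, zero_add] at this
  exact e2 (this ▸ (D j).zero_mem)

end ODec

section Alt
variable {f : Form (altKind F) V} {N : Subgroup f.Isom}

/-- All transvections with a given centre lie in `N`. -/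
def TX (N : Subgroup f.Isom) (u : V) : Prop := ∀ g s, f.IsEich g u 0 s → g ∈ N

lemma TX.zero : TX N 0 := fun g s hg => hg.of_zero ▸ N.one_mem

lemma TX.conj {u : V} (h : TX N u) {n : f.Isom} (hn : n ∈ N) : TX N (n.1 u) := fun g s hg => by
  have := h _ s (by simpa using hg.conj n⁻¹)
  simpa [mul_assoc] using N.mul_mem (N.mul_mem hn this) (N.inv_mem hn)

lemma TX.smul {u : V} (h : TX N u) (c : F) : TX N (c • u) := fun g s hg =>
  h _ _ (by simpa using hg.of_smul (alt_Q _ _) (by simp))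

lemma TX.add {u v : V} (hu : TX N u) (hv : TX N v) (h : f.B u v ≠ 0) : TX N (v + u) := by
  obtain ⟨g, hg⟩ := alt_exists_eich (f := f) (u := u) (v := 0) (by simp) (f.B u v)⁻¹
  simpa [hg.app, h] using hv.conj (hu g _ hg)

variable [FiniteDimensional F V] {D : Fin t → Submodule F V} {p : Fin t → V →ₗ[F] V}

lemma NDOn.exists_two {f : Form K V} {X : Submodule F V} (hX : f.NDOn X) {x y : V} (hx : x ∈ X)
    (hy : y ∈ X) (h0 : x ≠ 0) (h1 : y ≠ 0) : ∃ w ∈ X, f.B w x ≠ 0 ∧ f.B w y ≠ 0 := by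
  obtain ⟨a, ha, e1⟩ := hX.exists_ne hx h0
  obtain ⟨b, hb, e2⟩ := hX.exists_ne hy h1
  replace e1 := B_ne_comm e1
  replace e2 := B_ne_comm e2
  by_cases e3 : f.B a y = 0
  · by_cases e4 : f.B b x = 0
    · exact ⟨a + b, add_mem ha hb, by simpa [e4], by simpa [e3]⟩
    · exact ⟨b, hb, e4, e2⟩
  · exact ⟨a, ha, e1, e3⟩

theorem ODec.alt_top (h : f.ODec D p) (hf : f.ND) (h1 : ∀ i, ∀ v ∈ D i, TX N v)
    (h2 : (∃ c : F, c ≠ 0 ∧ c ≠ 1) ∨ ∀ i, 3 ≤ finrank F (D i))
    (h3 : ∀ π : Equiv.Perm (Fin t), ∃ n ∈ N, ∀ i, ∀ v ∈ D i, n.1 v ∈ D (π i))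
    {u : V} (hu : TX N u) {i j : Fin t} (hij : i ≠ j) (hi : p i u ≠ 0) (hj : p j u ≠ 0) :
    N = ⊤ := by
  have step : ∀ {u w : V} {i : Fin t}, TX N u → w ∈ D i → f.B w (p i u) ≠ 0 →
      TX N (u + (w - p i u)) := fun {u w i} hu hw e =>
    (h1 i _ (sub_mem hw (h.mem i u))).add hu (by
      rwa [h.B (sub_mem hw (h.mem i u)), map_sub, LinearMap.sub_apply, alt_B_self, sub_zero])
  have mod : ∀ {u w : V} {i : Fin t}, TX N u → w ∈ D i → p i u ≠ 0 → w ≠ 0 →
      TX N (u + (w - p i u)) := fun {u w i} hu hw e0 e1 => by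
    obtain ⟨w', hw', e2, e3⟩ := (h.nd i).exists_two (h.mem i u) hw e0 e1
    have e4 : p i (u + (w' - p i u)) = w' := by simp [h.self hw', h.pp]
    have := step (step hu hw' e2) hw (by rw [e4]; exact B_ne_comm e3)
    rw [e4] at this
    convert this using 1
    abel
  have mod2 : ∀ {u : V}, TX N u → p i u ≠ 0 → p j u ≠ 0 → ∀ a ∈ D i, ∀ b ∈ D j, a ≠ 0 → b ≠ 0 →
      TX N (u + (a - p i u) + (b - p j u)) := fun {u} hu hi hj a ha b hb a0 b0 => by
    have e : p j (u + (a - p i u)) = p j u := by simp [h.ne j i hij.symm a ha, h.pp' hij.symm]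
    simpa only [e] using mod (mod hu ha hi a0) hb (by rwa [e]) b0
  have pair : ∀ a ∈ D i, ∀ b ∈ D j, a ≠ 0 → b ≠ 0 → TX N (a + b) := by
    obtain ⟨a, ha, e1⟩ := (h.nd i).exists_ne (h.mem i u) hi
    obtain ⟨b, hb, e2, e3, e4⟩ : ∃ b ∈ D j, b ≠ 0 ∧ b ≠ p j u ∧ f.B b (p j u) = 0 := by
      rcases h2 with ⟨c, c0, c1⟩ | h2
      · refine ⟨c • p j u, Submodule.smul_mem _ _ (h.mem j u), smul_ne_zero c0 hj, fun e => ?_,
          by simp [alt_B_self]⟩
        rw [← sub_eq_zero, ← one_smul F (p j u), smul_smul, ← sub_smul, smul_eq_zero] at e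
        exact e.elim (fun e => c1 (by simpa [sub_eq_zero] using e)) hj
      · obtain ⟨w, -, e⟩ := (h.nd j).exists_ne (h.mem j u) hj
        obtain ⟨b, hb, b0, e'⟩ := exists_ne_zero_perp (f := f) (D j) [w, p j u] (h2 j)
        exact ⟨b, hb, b0, fun e1 => e (e1 ▸ e' w (by simp)), e' _ (by simp)⟩
    have a0 : a ≠ 0 := fun e => e1 (by simp [e])
    have m1 := sub_mem ha (h.mem i u)
    have m2 := sub_mem hb (h.mem j u)
    have := (hu.smul (-1)).add (mod2 hu hi hj a ha b hb a0 e2) (by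
      rw [f.B_smul_left, map_add, map_add, alt_B_self, alt_symm _ (a - _), alt_symm _ (b - _),
        h.B m1, h.B m2]
      simpa [alt_B_self, e4] using B_ne_comm e1)
    rw [show u + (a - p i u) + (b - p j u) + (-1 : F) • u = (a - p i u) + (b - p j u) by
      module] at this
    have e5 : p i (a - p i u + (b - p j u)) = a - p i u := by
      rw [map_add, h.self m1, h.ne i j hij _ m2, add_zero]
    have e6 : p j (a - p i u + (b - p j u)) = b - p j u := by
      rw [map_add, h.self m2, h.ne j i hij.symm _ m1, zero_add]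
    intro a' ha' b' hb' a0 b0
    convert mod2 this (by rw [e5, sub_ne_zero]; rintro rfl; exact e1 (alt_B_self _ _))
      (by rwa [e6, sub_ne_zero]) a' ha' b' hb' a0 b0 using 1
    rw [e5, e6]; abel
  have pair' : ∀ i' j', i' ≠ j' → ∀ a ∈ D i', ∀ b ∈ D j', TX N (a + b) := by
    intro i' j' e a ha b hb
    by_cases a0 : a = 0
    · simpa [a0] using h1 _ b hb
    by_cases b0 : b = 0
    · simpa [b0] using h1 _ a ha
    obtain ⟨π, e1, e2⟩ : ∃ π : Equiv.Perm (Fin t), π i' = i ∧ π j' = j := by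
      refine ⟨Equiv.swap (Equiv.swap i' i j') j * Equiv.swap i' i, ?_, by simp⟩
      rw [Equiv.Perm.mul_apply, Equiv.swap_apply_left, Equiv.swap_apply_of_ne_of_ne _ hij]
      rw [Ne, ← Equiv.symm_apply_eq]; simpa using e
    obtain ⟨n, hn, e3⟩ := h3 π
    have := pair _ (e1 ▸ e3 _ a ha) _ (e2 ▸ e3 _ b hb) (isom_ne_zero n a0) (isom_ne_zero n b0)
    simpa [← map_add] using this.conj (N.inv_mem hn)
  have all : ∀ s : Finset (Fin t), ∀ v, (∀ l ∉ s, p l v = 0) → TX N v := fun s => by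
    induction s using Finset.induction_on with
    | empty => exact fun v hv => by rw [← h.sum v]; simpa [hv] using TX.zero
    | insert a s ha ih =>
      intro v hv
      have e1 : ∀ l ∉ s, p l (v - p a v) = 0 := fun l hl => by
        by_cases e : l = a
        · rw [e, map_sub, h.pp, sub_self]
        · rw [map_sub, h.pp' e, hv l (by simp [e, hl]), sub_zero]
      by_cases e2 : v - p a v = 0
      · rw [sub_eq_zero.1 e2]; exact h1 a _ (h.mem a v)
      obtain ⟨b, hb⟩ := h.exists_ne e2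
      have e3 : b ∈ s := by_contra fun e => hb (e1 b e)
      have e4 : a ≠ b := fun e => ha (e ▸ e3)
      obtain ⟨c, hc, e5⟩ := (h.nd b).exists_ne (h.mem b _) hb
      have := (pair' a b e4 _ (h.mem a v) c hc).add (ih (v - p a v - c) fun l hl => by
        rw [map_sub, e1 l hl, h.ne l b (fun e => hl (e ▸ e3)) c hc, sub_zero]) (by
          rw [map_add, LinearMap.add_apply, h.B (h.mem a v), h.B hc, map_sub (p a), map_sub (p b),
            map_sub (p a), h.pp, h.ne a b e4 c hc, h.self hc]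
          simpa [alt_B_self] using B_ne_comm e5)
      convert this using 1
      abel
  exact alt_eq_top_of_transv hf fun g u s _ hg => all Finset.univ u (by simp) g s hg

end Alt

end Form

open Matrix Form Cfsg.Geo As
open scoped MatrixGroups

variable {ι : Type} {F : Type*} [Fintype ι] [DecidableEq ι] [Field F] {K : Kind F} {t m : ℕ}
  {f : Form K (ι → F)} {D : Fin t → Submodule F (ι → F)}

lemma exists_odec (hD : IsMDecomposition m D)
    (h1 : ∀ i j, i ≠ j → ∀ x ∈ D i, ∀ y ∈ D j, f.B x y = 0) (h2 : ∀ i, f.NDOn (D i)) :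
    ∃ p, f.ODec D p := by
  obtain ⟨e, P, hA⟩ := exists_adapt' hD
  refine ⟨fun i => (tv e P).toLinearMap ∘ₗ inb i ∘ₗ (LinearMap.funLeft F F fun l => (i, l)) ∘ₗ
    (tv e P).symm.toLinearMap, fun i v => (hA i _).2 fun p hp => if_neg hp, fun v => ?_,
    fun i j hij v hv => ?_, h1, h2⟩ <;> obtain ⟨x, rfl⟩ := (tv e P).surjective v <;>
    simp only [LinearMap.comp_apply, LinearEquiv.coe_coe, LinearEquiv.symm_apply_apply, ← map_sum]
  · congr 1
    ext p
    simp [inb]
  · rw [show LinearMap.funLeft F F (fun l => (i, l)) x = 0 from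
      funext fun l => (hA j x).1 hv (i, l) hij]
    simp

lemma exists_out (hD : IsMDecomposition m D) {g : f.Isom}
    (h : f.toGL g ∉ decompositionStabilizer D) : ∃ i, ∀ j, ∃ v ∈ D i, g.1 v ∉ D j := by
  by_contra hc
  push Not at hc
  choose π hπ using hc
  have key : ∀ i, (D i).map g.1.toLinearMap = D (π i) := fun i => by
    rw [← Form.toGL_toLin]
    exact map_eq_of_le (by simpa using hπ i) (by rw [hD.finrank_eq, hD.finrank_eq])
  have inj : Function.Injective π := fun i j e => by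
    have := (key i).trans (e ▸ (key j).symm)
    rw [(Submodule.map_injective_of_injective g.1.injective).eq_iff] at this
    by_contra hij
    obtain ⟨x, hx, h0⟩ := dec_ne hD i
    exact h0 (Submodule.disjoint_def.1 (hD.indep.pairwiseDisjoint hij) x hx (this ▸ hx))
  exact h (Form.toGL_mem_dec.2 ⟨Equiv.ofBijective π (Finite.injective_iff_bijective.1 inj), key⟩)

lemma eich_mem_dec (h1 : ∀ i j, i ≠ j → ∀ x ∈ D i, ∀ y ∈ D j, f.B x y = 0) {g : f.Isom}
    {a b : ι → F} {s : F} (hg : f.IsEich g a b s) {i : Fin t} (ha : a ∈ D i) (hb : b ∈ D i) :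
    f.toGL g ∈ decompositionStabilizer D :=
  ⟨1, fun j => mem_stab_iff.1 (Form.toGL_mem_stab.2 (by
    by_cases hj : j = i
    · exact hj ▸ hg.mem_stab ha hb
    · exact hg.mem_stab_perp (fun x hx => h1 _ _ hj x hx _ ha) fun x hx => h1 _ _ hj x hx _ hb))⟩

theorem sp_dec_max [Fintype F] {n : ℕ} (hn : 3 ≤ n) {D : Fin t → Submodule F (Fin n ⊕ Fin n → F)}
    (hD : IsNondegenerateMDecomposition (Cfsg.sympForm n F) m D)
    (hex : ¬ (m = 2 ∧ Fintype.card F = 2)) :
    IsMaximalIn (Cfsg.spGL n F) (decompositionStabilizer D ⊓ Cfsg.spGL n F) := by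
  have h0 := dec_card hD.decomp
  have h1 := hD.decomp.two_le
  have h2 := (big_Sp (F := F) (Or.inl hn)).not_dec hD.decomp (by simp at h0 ⊢; nlinarith)
  have orth : ∀ i j, i ≠ j → ∀ x ∈ D i, ∀ y ∈ D j, (spForm n F).B x y = 0 := fun i j e x hx y hy => by
    rw [spForm_B]; exact hD.orthogonal i j e x hx y hy
  have nd := fun i => ndOn_of (spForm_B n F) (hD.nondegenerate i)
  obtain ⟨p, hp⟩ := exists_odec hD.decomp orth nd
  let i₀ : Fin t := ⟨0, by omega⟩
  let φ := (Module.finBasisOfFinrankEq F (D i₀) (hD.decomp.finrank_eq _)).equivFun.symm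
  choose ψ hψ using fun i => alt_exists_isIso m _ _ _ _ ((restrict_ND _).2 (nd i₀))
    ((restrict_ND _).2 (nd i)) (hD.decomp.finrank_eq _) (hD.decomp.finrank_eq _)
  obtain ⟨e, P, hA, h3⟩ := (sf_symp n).adapt_gram hD (fun i => φ.trans (ψ i)) (G := fun _ => _)
    fun i x y => by
      rw [← ((sf_symp n).restr (hD.nondegenerate i₀) φ).eq_gf, ← spForm_B, ← spForm_B]
      exact (hψ i).B _ _
  have hE := spGL_eq_E (F := F) n
  rw [hE] at h2 ⊢
  refine isMaximalIn_map toGL_injective ?_ fun N hN g hg _ hg' => ?_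
  · obtain ⟨_, ⟨g, hg, rfl⟩, h⟩ := SetLike.not_le_iff_exists.1 h2
    exact ⟨g, hg, h⟩
  have h4 : ∀ i, ∀ v ∈ D i, TX N v := fun i v hv g s hg =>
    hN g hg.mem_E (eich_mem_dec orth hg hv (zero_mem _))
  obtain ⟨i, hi⟩ := exists_out hD.decomp hg'
  obtain ⟨v, hv, j, l, e1, e2, e3⟩ := hp.exists_two hi
  rw [hp.alt_top (spForm_ND n F) h4 ?_ (fun π => ?_) ((h4 i v hv).conj hg) e1 e2 e3]
  · exact le_top
  · by_cases hq : Fintype.card F = 2
    · have : m ≠ 2 := fun e => hex ⟨e, hq⟩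
      have h5 := (sf_symp n).even_of_nd (symp_alt n) (hD.nondegenerate i₀)
      have := hD.decomp.pos
      rw [hD.decomp.finrank_eq, Nat.even_iff] at h5
      exact Or.inr fun i => by rw [hD.decomp.finrank_eq]; omega
    · have := Fintype.one_lt_card (α := F)
      exact Or.inl (As.exists_ne_zero_one (by omega))
  · obtain ⟨g, h5, h6⟩ : bp e P π ∈ (spForm n F).E.map (spForm n F).toGL := hE ▸ bp_iso h3 π
    exact ⟨g, hN g h5 (h6 ▸ hA.bp_mem hD.decomp π), fun i v hv => by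
      rw [← Form.toGL_mulVec, h6]; exact hA.bp π i hv⟩

end H4
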