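import Cfsg.Agent.H4.MatBridge
import Cfsg.Prelude.Def_GeometricClasses

/-! Involutions of classical groups stabilising decompositions. -/

set_option autoImplicit false

namespace H4.El
open Module Submodule Cfsg.Geo

section Comb
variable {I : Type*} [DecidableEq I] {π : I → I} (hπ : Function.Involutive π) {S : Finset I}
include hπ

omit [DecidableEq I] in
lemma not_mem_of {B : Finset I} (h : ∀ i ∈ B, π i ∈ B) {i : I} (hi : i ∉ B) : π i ∉ B :=
  fun e => hi (hπ i ▸ h _ e)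

lemma invA (hS : ∀ i ∈ S, π i ∈ S) (k : ℕ) (hk : 2 * k ≤ S.card) :
    ∃ B ⊆ S, B.card = 2 * k ∧ ∀ i ∈ B, π i ∈ B := by
  induction k with
  | zero => exact ⟨∅, by simp⟩
  | succ k ih =>
    obtain ⟨B, h1, h2, h3⟩ := ih (by omega)
    obtain ⟨i, hi, j, hj, hij⟩ := Finset.one_lt_card.1
      (show 1 < (S \ B).card by rw [Finset.card_sdiff_of_subset h1]; omega)
    obtain ⟨i, hi, j, hj, hij, h4, h5⟩ : ∃ i ∈ S \ B, ∃ j ∈ S \ B, i ≠ j ∧ (π i = i ∨ π i = j) ∧
        (π j = i ∨ π j = j) := by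
      have key : ∀ i ∈ S \ B, π i ∈ S \ B := fun i hi => Finset.mem_sdiff.2
        ⟨hS i (Finset.mem_sdiff.1 hi).1, not_mem_of hπ h3 (Finset.mem_sdiff.1 hi).2⟩
      by_cases a : π i = i
      · by_cases b : π j = j
        · exact ⟨i, hi, j, hj, hij, .inl a, .inr b⟩
        · exact ⟨j, hj, π j, key j hj, Ne.symm b, .inr rfl, .inl (hπ j)⟩
      · exact ⟨i, hi, π i, key i hi, Ne.symm a, .inr rfl, .inl (hπ i)⟩
    rw [Finset.mem_sdiff] at hi hj
    refine ⟨insert i (insert j B), by simp [Finset.insert_subset_iff, hi.1, hj.1, h1], ?_, ?_⟩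
    · rw [Finset.card_insert_of_notMem (by simp [hij, hi.2]), Finset.card_insert_of_notMem hj.2, h2]
      ring
    · simp only [Finset.mem_insert]
      rintro l (rfl | rfl | h)
      · tauto
      · tauto
      · exact .inr (.inr (h3 l h))

lemma invB (hS : ∀ i ∈ S, π i ∈ S ∧ π i ≠ i) (k : ℕ) (hk : 2 * k ≤ S.card) :
    ∃ B ⊆ S, B.card = k ∧ ∀ i ∈ B, π i ∉ B := by
  induction k with
  | zero => exact ⟨∅, by simp⟩
  | succ k ih =>
    obtain ⟨B, h1, h2, h3⟩ := ih (by omega)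
    obtain ⟨i, hi, h4⟩ := Finset.exists_mem_notMem_of_card_lt_card (s := B ∪ B.image π) (t := S) (by
      have := Finset.card_union_le B (B.image π)
      have := Finset.card_image_le (s := B) (f := π)
      omega)
    simp only [Finset.mem_union, Finset.mem_image, not_or, not_exists, not_and] at h4
    refine ⟨insert i B, by simp [Finset.insert_subset_iff, hi, h1],
      by rw [Finset.card_insert_of_notMem h4.1, h2], ?_⟩
    simp only [Finset.mem_insert, not_or]
    rintro l (rfl | h)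
    · exact ⟨(hS l hi).2, fun e => h4.2 _ e (hπ l)⟩
    · exact ⟨h4.2 l h, h3 l h⟩

omit hπ in
/-- partitions into blocks of size `s` -/
def Prt (s t : ℕ) (S : Finset I) (P : Finset (Finset I)) : Prop :=
  P.card = t ∧ (∀ B ∈ P, B.card = s ∧ B ⊆ S) ∧ (∀ i ∈ S, ∃ B ∈ P, i ∈ B) ∧
    ∀ B ∈ P, ∀ B' ∈ P, B ≠ B' → Disjoint B B'

omit hπ in
lemma Prt.insert {s t : ℕ} {B : Finset I} {P : Finset (Finset I)} (h : Prt s t (S \ B) P)
    (h1 : B ⊆ S) (h2 : B.card = s) (hs : 0 < s) : Prt s (t + 1) S (insert B P) := by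
  obtain ⟨a, b, c, d⟩ := h
  have e : ∀ B' ∈ P, Disjoint B B' := fun B' h => Finset.disjoint_sdiff.mono_right (b B' h).2
  refine ⟨?_, ?_, fun i hi => ?_, ?_⟩
  · rw [Finset.card_insert_of_notMem fun h => ?_, a]
    have := e B h
    rw [disjoint_self, Finset.bot_eq_empty] at this
    simp [this] at h2; omega
  · simp only [Finset.mem_insert]
    rintro B' (rfl | h)
    exacts [⟨h2, h1⟩, ⟨(b B' h).1, (b B' h).2.trans Finset.sdiff_subset⟩]
  · by_cases h : i ∈ B
    · exact ⟨B, by simp, h⟩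
    · obtain ⟨B', h3, h4⟩ := c i (Finset.mem_sdiff.2 ⟨hi, h⟩)
      exact ⟨B', by simp [h3], h4⟩
  · simp only [Finset.mem_insert]
    rintro B₁ (rfl | h₁) B₂ (rfl | h₂) h
    exacts [absurd rfl h, e _ h₂, (e _ h₁).symm, d _ h₁ _ h₂ h]

lemma image_image (B : Finset I) : (B.image π).image π = B := by
  rw [Finset.image_image, hπ.comp_self, Finset.image_id]

theorem exists_prt {s : ℕ} (hs : 0 < s) (t : ℕ) : ∀ S : Finset I, (∀ i ∈ S, π i ∈ S) →
    S.card = s * t → ∃ P, Prt s t S P ∧ ∀ B ∈ P, B.image π ∈ P := by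
  induction t using Nat.strong_induction_on with
  | _ t ih =>
  intro S hS hc
  rcases t with _ | t
  · obtain rfl : S = ∅ := by simpa using hc
    exact ⟨∅, by simp [Prt]⟩
  have fin : ∀ B ⊆ S, B.card = s → (∀ i ∈ B, π i ∈ B) →
      ∃ P, Prt s (t + 1) S P ∧ ∀ B ∈ P, B.image π ∈ P := fun B h1 h2 h3 => by
    obtain ⟨P, h4, h5⟩ := ih t (by omega) (S \ B) (fun i hi => Finset.mem_sdiff.2
      ⟨hS i (Finset.mem_sdiff.1 hi).1, not_mem_of hπ h3 (Finset.mem_sdiff.1 hi).2⟩)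
      (by rw [Finset.card_sdiff_of_subset h1, hc, h2, mul_add]; omega)
    refine ⟨_, h4.insert h1 h2 hs, fun B' h => ?_⟩
    rcases Finset.mem_insert.1 h with rfl | h
    · rw [Finset.eq_of_subset_of_card_le (Finset.image_subset_iff.2 h3)
        (Finset.card_image_of_injective _ hπ.injective).ge]
      simp
    · exact Finset.mem_insert_of_mem (h5 B' h)
  have hle : s ≤ S.card := by rw [hc, mul_add]; omega
  rcases Nat.even_or_odd' s with ⟨k, rfl | rfl⟩
  · obtain ⟨B, h1, h2, h3⟩ := invA hπ hS k hle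
    exact fin B h1 h2 h3
  by_cases hf : ∃ i ∈ S, π i = i
  · obtain ⟨i, hi, e⟩ := hf
    obtain ⟨B, h1, h2, h3⟩ := invA hπ (S := S.erase i) (fun j hj => Finset.mem_erase.2
      ⟨fun h => (Finset.mem_erase.1 hj).1 (hπ.injective (h.trans e.symm)),
        hS j (Finset.mem_erase.1 hj).2⟩) k (by rw [Finset.card_erase_of_mem hi]; omega)
    refine fin (insert i B) (Finset.insert_subset hi (h1.trans (Finset.erase_subset _ _)))
      (by rw [Finset.card_insert_of_notMem fun h => by simpa using h1 h, h2]) fun j hj => ?_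
    rcases Finset.mem_insert.1 hj with rfl | hj
    · simp [e]
    · exact Finset.mem_insert_of_mem (h3 j hj)
  push Not at hf
  rcases t with _ | t
  · exact fin S le_rfl (by simpa using hc) hS
  obtain ⟨B, h1, h2, h3⟩ := invB hπ (fun i hi => ⟨hS i hi, hf i hi⟩) (2 * k + 1)
    (by rw [hc]; nlinarith)
  have h4 : B.image π ⊆ S \ B := Finset.image_subset_iff.2 fun i hi =>
    Finset.mem_sdiff.2 ⟨hS i (h1 hi), h3 i hi⟩
  have h5 := Finset.card_image_of_injective B hπ.injective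
  obtain ⟨P, h6, h7⟩ := ih t (by omega) ((S \ B) \ B.image π) (fun i hi => by
      simp only [Finset.mem_sdiff, Finset.mem_image, not_exists, not_and] at hi ⊢
      exact ⟨⟨hS i hi.1.1, fun e => hi.2 _ e (hπ i)⟩, fun j hj e => hi.1.2 (hπ.injective e ▸ hj)⟩)
    (by rw [Finset.card_sdiff_of_subset h4, Finset.card_sdiff_of_subset h1, hc, h5, h2]
        simp only [mul_add]; omega)
  refine ⟨_, (h6.insert h4 (h5.trans h2) hs).insert h1 h2 hs, fun B' h => ?_⟩
  simp only [Finset.mem_insert] at h ⊢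
  rcases h with rfl | rfl | h
  exacts [.inr (.inl rfl), .inl (image_image hπ B), .inr (.inr (h7 B' h))]

end Comb

section Lin
variable {F V : Type*} [Field F] [AddCommGroup V] [Module F V] [FiniteDimensional F V]
  {x : V →ₗ[F] V} {z : F}

omit [FiniteDimensional F V] in
lemma map_eq (hz : z ≠ 0) (hx : ∀ v, x (x v) = z • v) {U W : Submodule F V} (h1 : U.map x ≤ W)
    (h2 : W.map x ≤ U) : U.map x = W :=
  le_antisymm h1 fun w hw => ⟨z⁻¹ • x w, U.smul_mem _ (h2 ⟨w, hw, rfl⟩), by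
    rw [map_smul, hx, inv_smul_smul₀ hz]⟩

lemma finrank_sup_le {I : Type*} (B : Finset I) (A : I → Submodule F V) :
    finrank F ↥(B.sup A) ≤ ∑ i ∈ B, finrank F (A i) := by
  classical
  induction B using Finset.induction_on with
  | empty => simp
  | insert i B hi ih =>
    rw [Finset.sup_insert, Finset.sum_insert hi]
    exact (finrank_add_le_finrank_add_finrank _ _).trans (by omega)

lemma dec_of {t a : ℕ} (D : Fin t → Submodule F V) (h1 : ∀ j, finrank F (D j) ≤ a)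
    (h2 : iSup D = ⊤) (h3 : finrank F V = a * t) :
    (∀ j, finrank F (D j) = a) ∧ iSupIndep D := by
  have key : ∀ j, a * t ≤ finrank F ↥(D j ⊔ ⨆ i ≠ j, D i) ∧
      finrank F ↥(⨆ i ≠ j, D i) + a ≤ a * t := fun j => by
    refine ⟨?_, ?_⟩
    · rw [← iSup_split_single, h2, finrank_top, h3]
    · have := finrank_sup_le (Finset.univ.erase j) D
      rw [show (Finset.univ.erase j).sup D = ⨆ i ≠ j, D i by simp [Finset.sup_eq_iSup]] at this
      have h4 := Finset.sum_le_card_nsmul (Finset.univ.erase j) _ a fun i _ => h1 i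
      rw [Finset.card_erase_of_mem (Finset.mem_univ j), Finset.card_univ, Fintype.card_fin,
        smul_eq_mul] at h4
      obtain ⟨t, rfl⟩ : ∃ u, t = u + 1 := ⟨t - 1, by have := j.2; omega⟩
      rw [mul_add, mul_comm a t]
      simp only [Nat.add_sub_cancel] at h4
      omega
  refine ⟨fun j => ?_, fun j => disjoint_iff.2 (finrank_eq_zero.1 ?_)⟩ <;>
  · have := finrank_sup_add_finrank_inf_eq (D j) (⨆ i ≠ j, D i)
    have := key j
    have := h1 j
    omega

theorem dec {I : Type*} [DecidableEq I] {π : I → I} (hπ : Function.Involutive π) {S : Finset I}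
    (hS : ∀ i ∈ S, π i ∈ S) (hz : z ≠ 0) (hx : ∀ v, x (x v) = z • v) {A : I → Submodule F V}
    (hA : ∀ i ∈ S, (A i).map x ≤ A (π i)) {r s t : ℕ} (hr : ∀ i ∈ S, finrank F (A i) ≤ r)
    (hs : 0 < s) (h1 : S.sup A = ⊤) (h2 : S.card = s * t) (h3 : finrank F V = s * r * t) :
    ∃ P : Fin t → Finset I, (∀ j, P j ⊆ S) ∧ (∀ j j', j ≠ j' → Disjoint (P j) (P j')) ∧
      (∀ j, finrank F ↥((P j).sup A) = s * r) ∧ iSupIndep (fun j => (P j).sup A) ∧
      ⨆ j, (P j).sup A = ⊤ ∧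
      ∃ σ : Equiv.Perm (Fin t), ∀ j, ((P j).sup A).map x = (P (σ j)).sup A := by
  obtain ⟨P, ⟨a, b, c, d⟩, e⟩ := exists_prt hπ hs t S hS h2
  let ε := Finset.equivFinOfCardEq a
  have h4 : ⨆ j, (ε.symm j).1.sup A = ⊤ := top_le_iff.1 (h1.ge.trans (Finset.sup_le fun i hi => by
    obtain ⟨B, h5, h6⟩ := c i hi
    exact le_iSup_of_le (ε ⟨B, h5⟩) (by rw [ε.symm_apply_apply]; exact Finset.le_sup h6)))
  obtain ⟨h5, h6⟩ := dec_of (fun j => (ε.symm j).1.sup A) (fun j => (finrank_sup_le _ _).trans (by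
    have := Finset.sum_le_card_nsmul _ _ r fun i hi => hr i ((b _ (ε.symm j).2).2 hi)
    rwa [(b _ (ε.symm j).2).1] at this)) h4 h3
  have key : ∀ B ∈ P, (B.sup A).map x ≤ (B.image π).sup A := fun B hB =>
    map_le_iff_le_comap.2 (Finset.sup_le fun i hi => map_le_iff_le_comap.1
      ((hA i ((b B hB).2 hi)).trans (Finset.le_sup (Finset.mem_image_of_mem π hi))))
  refine ⟨fun j => ε.symm j, fun j => (b _ (ε.symm j).2).2, fun j j' h => d _ (ε.symm j).2 _
    (ε.symm j').2 fun e => h (ε.symm.injective (Subtype.ext e)), h5, h6, h4,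
    Function.Involutive.toPerm (fun j => ε ⟨_, e _ (ε.symm j).2⟩) fun j => ?_, fun j => ?_⟩
  · simp [image_image hπ]
  · have := key _ (e _ (ε.symm j).2)
    rw [image_image hπ] at this
    refine (map_eq hz hx (key _ (ε.symm j).2) this).trans ?_
    exact congrArg (fun B : P => B.1.sup A) (ε.symm_apply_apply ⟨_, e _ (ε.symm j).2⟩).symm

theorem dec' {I : Type*} {S : Finset I} (hz : z ≠ 0) (hx : ∀ v, x (x v) = z • v)
    {A : I → Submodule F V} (hA : ∀ i ∈ S, ∃ i' ∈ S, (A i).map x ≤ A i')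
    (hi : ∀ i ∈ S, ∀ i' ∈ S, A i ≤ A i' → i = i') {r s t : ℕ} (hr : ∀ i ∈ S, finrank F (A i) ≤ r)
    (hs : 0 < s) (h1 : S.sup A = ⊤) (h2 : S.card = s * t) (h3 : finrank F V = s * r * t) :
    ∃ P : Fin t → Finset I, (∀ j, P j ⊆ S) ∧ (∀ j j', j ≠ j' → Disjoint (P j) (P j')) ∧
      (∀ j, finrank F ↥((P j).sup A) = s * r) ∧ iSupIndep (fun j => (P j).sup A) ∧
      ⨆ j, (P j).sup A = ⊤ ∧
      ∃ σ : Equiv.Perm (Fin t), ∀ j, ((P j).sup A).map x = (P (σ j)).sup A := by
  classical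
  choose! π h4 h5 using hA
  refine dec (π := fun i => if i ∈ S then π i else i) (fun i => ?_) (fun i h => by simp [h, h4])
    hz hx (fun i h => by simp only [h, if_true]; exact h5 i h) hr hs h1 h2 h3
  by_cases h : i ∈ S
  · simp only [h, h4 i h, if_true]
    refine (hi i h _ (h4 _ (h4 i h)) fun v hv => h5 _ (h4 i h) ⟨_, h5 i h ⟨z⁻¹ • v,
      smul_mem _ _ hv, rfl⟩, ?_⟩).symm
    rw [hx, smul_inv_smul₀ hz]
  · simp [h]

theorem s5957 (hz : z ≠ 0) (hx : ∀ v, x (x v) = z • v) {a t : ℕ} (ha : 0 < a)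
    (h : finrank F V = a * t) : ∃ D : Fin t → Submodule F V, (∀ j, finrank F (D j) = a) ∧
      iSupIndep D ∧ iSup D = ⊤ ∧ ∃ σ : Equiv.Perm (Fin t), ∀ j, (D j).map x = D (σ j) := by
  have inj : ∀ v, x v = 0 → v = 0 := fun v h => by
    have := hx v
    rwa [h, map_zero, eq_comm, smul_eq_zero_iff_right hz] at this
  obtain ⟨U, hU, hm⟩ := (wellFounded_gt (α := Submodule F V)).has_min
    {U | Disjoint U (U.map x)} ⟨⊥, by simp⟩
  have hU' : Disjoint U (U.map x) := hU
  obtain ⟨s, -, h1, h2⟩ := exists_linearIndependent F (U : Set V)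
  rw [span_eq] at h1
  have h3 : LinearIndepOn F id (s ∪ x '' s) := LinearIndepOn.id_union h2
    (LinearIndepOn.image h2 (disjoint_def.2 fun v _ => inj v)) (by rwa [span_image, h1])
  obtain ⟨b, h4, h5, h6, h7⟩ := exists_linearIndepOn_id_extension h3
    (Set.subset_union_left (t := {v | ∃ c : F, x v = c • v}))
  have hM : U ⊔ U.map x ≤ span F b := by
    rw [← h1, ← span_image, ← span_union]; exact span_mono h5
  have htop : span F b = ⊤ := eq_top_iff.2 fun v _ => by_contra fun hv => by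
    have h0 : v ∉ U ⊔ U.map x := fun e => hv (hM e)
    have h8 : ¬ Disjoint (U ⊔ F ∙ v) ((U ⊔ F ∙ v).map x) := fun e => hm _ e
      (lt_of_le_of_ne le_sup_left fun e' => h0 (mem_sup_left
        (e'.ge (mem_sup_right (mem_span_singleton_self v)))))
    rw [disjoint_def] at h8
    push Not at h8
    obtain ⟨w, h8, ⟨_, h9, rfl⟩, h10⟩ := h8
    obtain ⟨u, hu, _, h11, rfl⟩ := mem_sup.1 h9
    obtain ⟨c, rfl⟩ := mem_span_singleton.1 h11
    obtain ⟨u', hu', _, h12, e⟩ := mem_sup.1 h8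
    obtain ⟨d, rfl⟩ := mem_span_singleton.1 h12
    rw [map_add, map_smul] at e h10
    have c0 : c ≠ 0 := by
      rintro rfl
      rw [zero_smul, add_zero] at e h10
      have : d = 0 := by_contra fun d0 => h0 ((smul_mem_iff _ d0).1 (by
        rw [eq_sub_of_add_eq' e]; exact sub_mem (mem_sup_right ⟨u, hu, rfl⟩) (mem_sup_left hu')))
      rw [this, zero_smul, add_zero] at e
      exact h10 (disjoint_def.1 hU' _ (e ▸ hu') ⟨u, hu, rfl⟩)
    have e2 := congrArg x e
    rw [map_add, map_add, map_smul, map_smul, hx, hx] at e2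
    have e3 : (c ^ 2 * z - d ^ 2) • v = (d • u' - (c * z) • u) + x (c • u' - d • u) := by
      rw [map_sub, map_smul, map_smul]
      linear_combination (norm := module) (-c) • e2 - d • e
    have m1 : d • u' - (c * z) • u ∈ U := sub_mem (smul_mem _ _ hu') (smul_mem _ _ hu)
    have m2 : x (c • u' - d • u) ∈ U.map x := ⟨_, sub_mem (smul_mem _ _ hu') (smul_mem _ _ hu), rfl⟩
    have e4 : c ^ 2 * z - d ^ 2 = 0 := by_contra fun e0 => h0 ((smul_mem_iff _ e0).1
      (e3 ▸ add_mem (mem_sup_left m1) (mem_sup_right m2)))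
    rw [e4, zero_smul, eq_comm, add_eq_zero_iff_neg_eq] at e3
    have e5 := inj _ (disjoint_def.1 hU' _ (e3 ▸ neg_mem m1) m2)
    have e6 : c • v + u ∈ span F b := h6 (Or.inr ⟨c⁻¹ * d, by
      rw [map_add, map_smul, mul_smul, eq_inv_smul_iff₀ c0]
      linear_combination (norm := module) e5 - c • e⟩)
    exact hv ((smul_mem_iff _ c0).1 ((Submodule.add_mem_iff_left _ (hM (mem_sup_left hu))).1 e6))
  lift b to Finset V using LinearIndependent.set_finite_of_isNoetherian h7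
  obtain ⟨P, -, -, k1, k2, k3, k4⟩ := dec' (S := b) (A := fun v => F ∙ v) (r := 1) (s := a) (t := t)
    hz hx (fun v hv => by
      simp only [map_span, Set.image_singleton, span_singleton_le_iff_mem]
      rcases h4 hv with (h | ⟨w, h, rfl⟩) | ⟨c, h⟩
      · exact ⟨_, h5 (.inr ⟨v, h, rfl⟩), mem_span_singleton_self _⟩
      · exact ⟨w, h5 (.inl h), mem_span_singleton.2 ⟨z, (hx w).symm⟩⟩
      · exact ⟨v, hv, mem_span_singleton.2 ⟨c, h.symm⟩⟩)
    (fun v hv w hw e => by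
      obtain ⟨c, hc⟩ := mem_span_singleton.1 (e (mem_span_singleton_self v))
      exact congrArg Subtype.val (LinearIndependent.eq_of_smul_apply_eq_smul_apply h7 1 c ⟨v, hv⟩
        ⟨w, hw⟩ one_ne_zero (by simp [hc])))
    (fun v _ => by simpa using finrank_span_le_card (R := F) {v}) ha
    (by rw [Finset.sup_eq_iSup, ← htop, span_eq_iSup_of_singleton_spans]; rfl)
    (by rw [← finrank_span_finset_eq_card h7, htop, finrank_top, h]) (by rw [mul_one, h])
  exact ⟨_, by simpa using k1, k2, k3, k4⟩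

end Lin

section Alt
variable {F V : Type*} [Field F] [AddCommGroup V] [Module F V] {B : V →ₗ[F] V →ₗ[F] F}
  {x : V →ₗ[F] V} {z : F} {X : Submodule F V} {e f : V}

variable (B) in
/-- nondegenerate subspaces -/
def NDX (X : Submodule F V) : Prop := ∀ u ∈ X, (∀ v ∈ X, B u v = 0) → u = 0

variable (B) in
/-- the part of `X` orthogonal to `e` and `f` -/
def cut (X : Submodule F V) (e f : V) : Submodule F V :=
  X ⊓ (LinearMap.ker (B e) ⊓ LinearMap.ker (B f))

lemma mem_cut {v : V} : v ∈ cut B X e f ↔ v ∈ X ∧ B e v = 0 ∧ B f v = 0 := Iff.rfl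

variable (F) in
/-- the plane spanned by a pair -/
def pl (p : V × V) : Submodule F V := span F {p.1, p.2}

lemma orth_span {s t : Set V} (h : ∀ a ∈ s, ∀ b ∈ t, B a b = 0) :
    ∀ u ∈ span F s, ∀ v ∈ span F t, B u v = 0 := fun _ hu v hv =>
  (span_le (p := LinearMap.ker (B.flip v))).2
    (fun a ha => (span_le (p := LinearMap.ker (B a))).2 (h a ha) hv) hu

lemma orth_sup {I : Type*} {s t : Finset I} {A A' : I → Submodule F V}
    (h : ∀ a ∈ s, ∀ b ∈ t, ∀ u ∈ A a, ∀ v ∈ A' b, B u v = 0) :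
    ∀ u ∈ s.sup A, ∀ v ∈ t.sup A', B u v = 0 := fun _ hu v hv =>
  (Finset.sup_le (a := LinearMap.ker (B.flip v)) fun a ha u hu =>
    (Finset.sup_le (a := LinearMap.ker (B u)) fun b hb => h a ha b hb u hu) hv) hu

variable (B) in
/-- orthogonal systems of hyperbolic planes -/
structure Sys (X : Submodule F V) (S : Finset (V × V)) : Prop where
  ne : ∀ p ∈ S, B p.1 p.2 ≠ 0
  orth : ∀ p ∈ S, ∀ q ∈ S, p ≠ q → ∀ u ∈ pl F p, ∀ v ∈ pl F q, B u v = 0
  sup : S.sup (pl F) = X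
  card : 2 * S.card = finrank F X

lemma fst_mem (p : V × V) : p.1 ∈ pl F p := subset_span (by simp)

lemma snd_mem (p : V × V) : p.2 ∈ pl F p := subset_span (by simp)

variable (alt : ∀ v, B v v = 0)
include alt

lemma skew (u v : V) : B u v = - B v u := by
  have := alt (u + v)
  simp only [map_add, LinearMap.add_apply, alt] at this
  linear_combination this

lemma cut_sup (he : e ∈ X) (hf : f ∈ X) (h : B e f ≠ 0) : pl F (e, f) ⊔ cut B X e f = X := by
  refine le_antisymm (sup_le (span_le.2 (by rintro _ (rfl | rfl); exacts [he, hf])) inf_le_left)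
    fun v hv => mem_sup.2 ⟨(-(B f v / B e f)) • e + (B e v / B e f) • f,
      add_mem (smul_mem _ _ (fst_mem (e, f))) (smul_mem _ _ (snd_mem (e, f))),
      v - ((-(B f v / B e f)) • e + (B e v / B e f) • f),
      ⟨sub_mem hv (add_mem (smul_mem _ _ he) (smul_mem _ _ hf)), ?_, ?_⟩, by abel⟩
  · simp [alt, h]
  · simp [alt, skew alt f e, h]

lemma cut_orth : ∀ u ∈ pl F (e, f), ∀ v ∈ cut B X e f, B u v = 0 := fun u hu v hv =>
  orth_span (t := {v}) (by rintro _ (rfl | rfl) _ rfl; exacts [hv.2.1, hv.2.2]) u hu v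
    (mem_span_singleton_self v)

lemma cut_nd (hX : NDX B X) (he : e ∈ X) (hf : f ∈ X) (h : B e f ≠ 0) : NDX B (cut B X e f) :=
  fun u hu H => hX u hu.1 fun v hv => by
    obtain ⟨a, ha, b, hb, rfl⟩ := mem_sup.1 ((cut_sup alt he hf h).ge hv)
    rw [map_add, H b hb, skew alt, cut_orth alt a ha u hu]; simp

variable [FiniteDimensional F V]

lemma cut_rank (he : e ∈ X) (hf : f ∈ X) (h : B e f ≠ 0) :
    finrank F X = finrank F (cut B X e f) + 2 := by
  classical
  have key : ∀ a b : F, B e (a • e + b • f) = 0 → B f (a • e + b • f) = 0 → a = 0 ∧ b = 0 := by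
    intro a b h1 h2
    simp [alt, h, skew alt f e] at h1 h2
    exact ⟨h2, h1⟩
  have h1 : pl F (e, f) ⊓ cut B X e f = ⊥ := eq_bot_iff.2 fun v ⟨h1, h2⟩ => by
    obtain ⟨a, b, rfl⟩ := mem_span_pair.1 h1
    obtain ⟨rfl, rfl⟩ := key a b h2.2.1 h2.2.2
    simp
  have h2 : finrank F (pl F (e, f)) = 2 := by
    have := finrank_span_eq_card (LinearIndependent.pair_iff.2 fun a b h =>
      key a b (by rw [h, map_zero]) (by rw [h, map_zero]))
    rwa [Matrix.range_cons_cons_empty] at this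
  have := finrank_sup_add_finrank_inf_eq (pl F (e, f)) (cut B X e f)
  rw [cut_sup alt he hf h, h1, h2, finrank_bot] at this
  omega

lemma Sys.insert [DecidableEq V] {S : Finset (V × V)} (hS : Sys B (cut B X e f) S) (he : e ∈ X)
    (hf : f ∈ X) (h : B e f ≠ 0) : Sys B X (insert (e, f) S) := by
  have k : ∀ q ∈ S, ∀ u ∈ pl F (e, f), ∀ v ∈ pl F q, B u v = 0 := fun q hq u hu v hv =>
    cut_orth alt u hu v (hS.sup.le (Finset.le_sup (f := pl F) hq hv))
  refine ⟨?_, ?_, by rw [Finset.sup_insert, hS.sup, cut_sup alt he hf h], ?_⟩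
  · simpa [h] using hS.ne
  · simp only [Finset.mem_insert]
    rintro p (rfl | hp) q (rfl | hq) hne u hu v hv
    exacts [absurd rfl hne, k q hq u hu v hv, by rw [skew alt, k p hp v hv u hu, neg_zero],
      hS.orth p hp q hq hne u hu v hv]
  · rw [Finset.card_insert_of_notMem fun hq => h (k _ hq _ (fst_mem _) _ (snd_mem _)),
      cut_rank alt he hf h, ← hS.card]
    ring

theorem exists_sys (hx : ∀ v, x (x v) = z • v) (hB : ∀ u v, B (x u) (x v) = B u v) (n : ℕ) :
    ∀ X : Submodule F V, finrank F X = n → NDX B X → (∀ v ∈ X, x v ∈ X) →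
      ∃ S, Sys B X S ∧ ∀ p ∈ S, p.2 = x p.1 ∨ (z = 1 ∧ ((x p.1, x p.2) ∈ S ∨
        (x p.1 ∈ F ∙ p.1 ∧ x p.2 ∈ F ∙ p.2))) := by
  classical
  induction n using Nat.strong_induction_on with
  | _ n ih =>
  intro X hn hX hi
  by_cases h0 : X = ⊥
  · exact ⟨∅, ⟨by simp, by simp, by simp [h0], by subst h0; simp⟩, by simp⟩
  have adj : ∀ u v, B u (x v) = 0 ↔ z * B (x u) v = 0 := fun u v => by
    rw [← hB, hx, map_smul, smul_eq_mul]
  have one : ∀ e ∈ X, ∀ f ∈ X, B e f ≠ 0 → x e ∈ pl F (e, f) → x f ∈ pl F (e, f) →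
      (f = x e ∨ (z = 1 ∧ x e ∈ F ∙ e ∧ x f ∈ F ∙ f)) → ∃ S, Sys B X S ∧ ∀ p ∈ S, p.2 = x p.1 ∨
        (z = 1 ∧ ((x p.1, x p.2) ∈ S ∨ (x p.1 ∈ F ∙ p.1 ∧ x p.2 ∈ F ∙ p.2))) := by
    intro e he f hf h h1 h2 h3
    obtain ⟨S, h4, h5⟩ := ih _ (by rw [← hn, cut_rank alt he hf h]; omega) _ rfl
      (cut_nd alt hX he hf h) fun v hv => ⟨hi v hv.1,
        (adj _ _).2 (by rw [cut_orth alt _ h1 v hv, mul_zero]),
        (adj _ _).2 (by rw [cut_orth alt _ h2 v hv, mul_zero])⟩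
    refine ⟨_, h4.insert alt he hf h, fun p hp => ?_⟩
    rcases Finset.mem_insert.1 hp with rfl | hp
    · exact h3.imp_right fun h => ⟨h.1, .inr h.2⟩
    · exact (h5 p hp).imp_right fun h => ⟨h.1, h.2.imp_left Finset.mem_insert_of_mem⟩
  by_cases h1 : ∃ e ∈ X, B e (x e) ≠ 0
  · obtain ⟨e, he, h⟩ := h1
    exact one e he _ (hi e he) h (snd_mem (e, x e)) (hx e ▸ smul_mem _ _ (fst_mem (e, x e)))
      (.inl rfl)
  push Not at h1
  have sa : ∀ u ∈ X, ∀ v ∈ X, B u (x v) = B (x u) v := fun u hu v hv => by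
    have := h1 _ (add_mem hu hv)
    simp only [map_add, LinearMap.add_apply, h1 u hu, h1 v hv, skew alt v] at this
    linear_combination this
  have ex : ∀ e ∈ X, e ≠ 0 → ∃ f ∈ X, B e f ≠ 0 := fun e he e0 => by
    by_contra! hc
    exact e0 (hX e he hc)
  obtain ⟨e, he, e0⟩ := (Submodule.ne_bot_iff X).1 h0
  obtain ⟨f, hf, h⟩ := ex e he e0
  have hz : z = 1 := mul_right_cancel₀ h (by
    have := sa e he _ (hi f hf)
    rwa [hB, hx, map_smul, smul_eq_mul, ← one_mul (B e f), ← mul_assoc, mul_one] at this)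
  by_cases h2 : ∀ e ∈ X, x e ∈ F ∙ e
  · exact one e he f hf h (span_mono (by simp) (h2 e he)) (span_mono (by simp) (h2 f hf))
      (.inr ⟨hz, h2 e he, h2 f hf⟩)
  push Not at h2
  obtain ⟨e, he, h2⟩ := h2
  obtain ⟨f, hf, h, h3⟩ : ∃ f ∈ X, B e f ≠ 0 ∧ B (x e) f = 0 := by
    obtain ⟨g, hg, h3⟩ := ex _ (hi e he) fun e => h2 (e ▸ zero_mem _)
    obtain ⟨f, hf, h4⟩ := ex (B (x e) g • e - B e g • x e)
      (sub_mem (smul_mem _ _ he) (smul_mem _ _ (hi e he))) fun e' => h2 (by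
        rw [sub_eq_zero] at e'
        have : B e g ≠ 0 := fun e2 => by
          rw [e2, zero_smul, smul_eq_zero_iff_right h3] at e'
          exact h2 (by rw [e', map_zero]; exact zero_mem _)
        exact (smul_mem_iff _ this).1 (e' ▸ smul_mem _ _ (mem_span_singleton_self e)))
    refine ⟨B (x e) g • f - B (x e) f • g, sub_mem (smul_mem _ _ hf) (smul_mem _ _ hg),
      fun e' => h4 ?_, by simp [mul_comm]⟩
    simp only [map_sub, map_smul, smul_eq_mul, LinearMap.sub_apply, LinearMap.smul_apply] at e' ⊢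
    linear_combination e'
  have a1 : x e ∈ cut B X e f := ⟨hi e he, h1 e he, by
    show B f _ = 0; rw [skew alt, h3, neg_zero]⟩
  have a2 : x f ∈ cut B X e f := ⟨hi f hf, (sa e he f hf).trans h3, h1 f hf⟩
  have h' : B (x e) (x f) ≠ 0 := by rwa [hB]
  obtain ⟨S, h4, h5⟩ := ih _ (by
      rw [← hn, cut_rank alt he hf h, cut_rank alt a1 a2 h']; omega) _ rfl
    (cut_nd alt (cut_nd alt hX he hf h) a1 a2 h') fun v hv => ⟨⟨hi v hv.1.1,
      (adj _ _).2 (by rw [show B (x e) v = 0 from hv.2.1, mul_zero]),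
      (adj _ _).2 (by rw [show B (x f) v = 0 from hv.2.2, mul_zero])⟩,
      (hB e v).trans hv.1.2.1, (hB f v).trans hv.1.2.2⟩
  refine ⟨_, (h4.insert alt a1 a2 h').insert alt he hf h, fun p hp => ?_⟩
  simp only [Finset.mem_insert] at hp ⊢
  rcases hp with rfl | rfl | hp
  · exact .inr ⟨hz, .inl (.inr (.inl rfl))⟩
  · exact .inr ⟨hz, .inl (.inl (by simp [hx, hz]))⟩
  · exact (h5 p hp).imp_right fun h => ⟨h.1, h.2.imp_left fun h => .inr (.inr h)⟩

variable (hz : z ≠ 0) (hx : ∀ v, x (x v) = z • v) (hB : ∀ u v, B (x u) (x v) = B u v)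
  (nd : ∀ u, (∀ v, B u v = 0) → u = 0)
include hz hx hB nd

theorem s5960 {s t : ℕ} (hs : 0 < s) (h : finrank F V = s * 2 * t) :
    ∃ D : Fin t → Submodule F V, (∀ j, finrank F (D j) = s * 2) ∧ iSupIndep D ∧ iSup D = ⊤ ∧
      (∀ j, ∀ u ∈ D j, u ≠ 0 → ∃ v ∈ D j, B u v ≠ 0) ∧
      (∀ j j', j ≠ j' → ∀ u ∈ D j, ∀ v ∈ D j', B u v = 0) ∧
      ∃ σ : Equiv.Perm (Fin t), ∀ j, (D j).map x = D (σ j) := by
  classical
  obtain ⟨S, h1, h2⟩ := exists_sys alt hx hB _ ⊤ rfl (fun u _ h => nd u fun v => h v trivial)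
    fun _ _ => trivial
  obtain ⟨P, k1, k2, k3, k4, k5, k6⟩ := dec' (S := S) (A := pl F) (r := 2) (s := s) (t := t) hz hx
    (fun p hp => by
      simp only [pl, map_span, Set.image_pair, span_le, Set.insert_subset_iff,
        Set.singleton_subset_iff]
      rcases h2 p hp with h | ⟨-, h | h⟩
      · exact ⟨p, hp, h ▸ snd_mem p, by rw [h, hx]; exact smul_mem _ _ (h ▸ fst_mem p)⟩
      · exact ⟨_, h, fst_mem (x p.1, x p.2), snd_mem (x p.1, x p.2)⟩
      · exact ⟨p, hp, span_mono (by simp) h.1, span_mono (by simp) h.2⟩)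
    (fun p hp q hq e => by_contra fun hne =>
      h1.ne p hp (h1.orth p hp q hq hne _ (fst_mem p) _ (e (snd_mem p))))
    (fun p _ => (finrank_span_le_card (R := F) {p.1, p.2}).trans (by
      simpa using Finset.card_le_two)) hs h1.sup (by
      have := h1.card
      rw [finrank_top, h] at this
      nlinarith) h
  have k7 : ∀ j j', j ≠ j' → ∀ u ∈ (P j).sup (pl F), ∀ v ∈ (P j').sup (pl F), B u v = 0 :=
    fun j j' hj => orth_sup fun p hp q hq => h1.orth p (k1 j hp) q (k1 j' hq)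
      fun e => Finset.disjoint_left.1 (k2 j j' hj) hp (e ▸ hq)
  refine ⟨_, k3, k4, k5, fun j u hu u0 => ?_, k7, k6⟩
  by_contra! hc
  refine u0 (nd u fun v => (iSup_le (a := LinearMap.ker (B u)) fun j' w hw => ?_) (k5.ge trivial))
  by_cases e : j = j'
  exacts [hc w (e ▸ hw), k7 j j' e u hu w hw]

theorem s5962 (h2 : (2 : F) ≠ 0) : ∃ U W : Submodule F V, IsCompl U W ∧
    (∀ u ∈ U, ∀ v ∈ U, B u v = 0) ∧ (∀ u ∈ W, ∀ v ∈ W, B u v = 0) ∧
    ((U.map x = U ∧ W.map x = W) ∨ (U.map x = W ∧ W.map x = U)) := by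
  obtain ⟨S, h1, h3⟩ := exists_sys alt hx hB _ ⊤ rfl (fun u _ h => nd u fun v => h v trivial)
    fun _ _ => trivial
  have ti : ∀ g : V × V → V, (∀ p, g p ∈ pl F p) →
      ∀ u ∈ S.sup fun p => F ∙ g p, ∀ v ∈ S.sup fun p => F ∙ g p, B u v = 0 := fun g hg =>
    orth_sup fun p hp q hq => orth_span (by
      rintro _ rfl _ rfl
      by_cases e : p = q
      exacts [e ▸ alt _, h1.orth p hp q hq e _ (hg p) _ (hg q)])
  have top : (S.sup fun p => F ∙ p.1) ⊔ (S.sup fun p => F ∙ p.2) = ⊤ := by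
    rw [← Finset.sup_sup, ← h1.sup]
    exact congrArg _ (funext fun p => (span_insert p.1 {p.2}).symm)
  have mp : ∀ g g' : V × V → V, (∀ p ∈ S, ∃ q ∈ S, x (g p) ∈ F ∙ g' q) →
      (S.sup fun p => F ∙ g p).map x ≤ S.sup fun p => F ∙ g' p := fun g g' h =>
    map_le_iff_le_comap.2 (Finset.sup_le fun p hp => (span_singleton_le_iff_mem _ _).2
      (let ⟨_, hq, h⟩ := h p hp; Finset.le_sup (f := fun p => F ∙ g' p) hq h))
  refine ⟨_, _, ⟨disjoint_def.2 fun u hu hu' => nd u fun v => ?_, codisjoint_iff.2 top⟩,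
    ti _ fst_mem, ti _ snd_mem, ?_⟩
  · obtain ⟨a, ha, b, hb, rfl⟩ := mem_sup.1 (top.ge (mem_top (x := v)))
    rw [map_add, ti _ fst_mem u hu a ha, ti _ snd_mem u hu' b hb, add_zero]
  by_cases h4 : z = 1
  · have k : ∀ p ∈ S, (x p.1, x p.2) ∈ S ∨ (x p.1 ∈ F ∙ p.1 ∧ x p.2 ∈ F ∙ p.2) := fun p hp =>
      ((h3 p hp).resolve_left fun e => h1.ne p hp (by
        have := hB p.1 (x p.1)
        rw [hx, h4, one_smul, skew alt] at this
        rw [e]
        exact mul_left_cancel₀ h2 (by linear_combination -this))).2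
    have a := mp Prod.fst Prod.fst fun p hp => (k p hp).elim
      (fun h => ⟨_, h, mem_span_singleton_self _⟩) fun h => ⟨p, hp, h.1⟩
    have b := mp Prod.snd Prod.snd fun p hp => (k p hp).elim
      (fun h => ⟨_, h, mem_span_singleton_self _⟩) fun h => ⟨p, hp, h.2⟩
    exact .inl ⟨map_eq hz hx a a, map_eq hz hx b b⟩
  · have k : ∀ p ∈ S, p.2 = x p.1 := fun p hp => (h3 p hp).resolve_right fun h => h4 h.1
    have a := mp Prod.fst Prod.snd fun p hp => ⟨p, hp, k p hp ▸ mem_span_singleton_self _⟩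
    have b := mp Prod.snd Prod.fst fun p hp => ⟨p, hp, by
      rw [k p hp, hx]; exact smul_mem _ _ (mem_span_singleton_self _)⟩
    exact .inr ⟨map_eq hz hx a b, map_eq hz hx b a⟩

end Alt

section Mat
open Matrix
variable {F ι : Type*} [Field F] [Fintype ι] [DecidableEq ι]

lemma sq_lin {A : Matrix ι ι F} {z : F} (h : A ^ 2 = z • (1 : Matrix ι ι F)) (v : ι → F) :
    toLin' A (toLin' A v) = z • v := by
  rw [toLin'_apply, toLin'_apply, mulVec_mulVec, ← sq, h, smul_mulVec, one_mulVec]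

lemma sq_ne [Nonempty ι] {A : Matrix ι ι F} {z : F} (h : A ^ 2 = z • (1 : Matrix ι ι F))
    (hA : A.det = 1) : z ≠ 0 := by
  rintro rfl
  have := congrArg det h
  rw [det_pow, hA, zero_smul, det_zero] at this
  simp at this

variable (F) in
/-- the symplectic form as a bilinear map -/
def sB (d : ℕ) : (Fin d ⊕ Fin d → F) →ₗ[F] (Fin d ⊕ Fin d → F) →ₗ[F] F := (spForm d F).B

lemma sB_apply {d : ℕ} (u v : Fin d ⊕ Fin d → F) : sB F d u v = Cfsg.sympForm d F u v :=
  spForm_B _ _ u v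

lemma sB_alt {d : ℕ} (v : Fin d ⊕ Fin d → F) : sB F d v v = 0 := by
  simp [sB_apply, sympForm_eq, mul_comm]

lemma sB_nd {d : ℕ} (u : Fin d ⊕ Fin d → F) (h : ∀ v, sB F d u v = 0) : u = 0 :=
  spForm_ND d F u h

lemma sB_iso {d : ℕ} (x : symplecticGroup (Fin d) F) (u v : Fin d ⊕ Fin d → F) :
    sB F d (toLin' x.1 u) (toLin' x.1 v) = sB F d u v := by
  simpa [sB_apply] using mem_symplecticGroup_iff.1 x.2 u v

end Mat

end H4.El
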