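import Cfsg.Agent.H4.ElA

/-! The normaliser of the diagonal torus of the symplectic group. -/

set_option autoImplicit false

namespace H4.El
open Module Matrix Cfsg

section Tor
variable {F : Type*} [Field F] {m : ℕ}

local notation "ι" => Fin m ⊕ Fin m
local notation "𝐞" a => (Pi.single a (1 : F) : ι → F)

/-- the side of a coordinate -/
def sd (b : Bool) (j : Fin m) : ι := if b then .inr j else .inl j

/-- parameters of monomial symplectic matrices -/
abbrev Par (F : Type*) [Field F] (m : ℕ) := Equiv.Perm (Fin m) × (Fin m → Bool) × (Fin m → Fˣ)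

/-- the permutation -/
def pπ (p : Par F m) : ι → ι := Sum.elim (fun i => sd (p.2.1 i) (p.1 i)) fun i => sd (!p.2.1 i) (p.1 i)

/-- the coefficients -/
def pd (p : Par F m) : ι → F :=
  Sum.elim (fun i => p.2.2 i) fun i => (if p.2.1 i then -1 else 1) * ((p.2.2 i : F))⁻¹

/-- the matrix -/
def pM (p : Par F m) : Matrix ι ι F := of fun a b => if a = pπ p b then pd p b else 0

lemma pM_e (p : Par F m) (b : ι) : pM p *ᵥ (𝐞 b) = pd p b • 𝐞 (pπ p b) := by
  ext a; simp [pM, Pi.single_apply]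

lemma symp_e (a b : ι) : sympForm m F (𝐞 a) (𝐞 b) = J (Fin m) F a b := by simp [sympForm]

lemma mem_sp_of {A : Matrix ι ι F}
    (h : ∀ a b, sB F m (A *ᵥ 𝐞 a) (A *ᵥ 𝐞 b) = J (Fin m) F a b) : A ∈ symplecticGroup (Fin m) F := by
  refine mem_symplecticGroup_iff.2 fun u v => ?_
  have := (Pi.basisFun F ι).ext (f₁ := (sB F m).compl₁₂ A.mulVecLin A.mulVecLin) (f₂ := sB F m)
    fun a => (Pi.basisFun F ι).ext fun b => by
      simpa [-mulVec_single, sB_apply, symp_e] using h a b
  simpa [sB_apply] using LinearMap.congr_fun (LinearMap.congr_fun this u) v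

lemma pM_mem (p : Par F m) : pM p ∈ symplecticGroup (Fin m) F := mem_sp_of fun a b => by
  simp only [pM_e, map_smul, LinearMap.smul_apply, sB_apply, symp_e, smul_eq_mul]
  rcases a with i | i <;> rcases b with j | j <;> by_cases h : i = j <;>
    cases h1 : p.2.1 i <;> cases h2 : p.2.1 j <;> simp_all [pπ, pd, sd, J, one_apply]

variable (F m) in
/-- the diagonal torus -/
abbrev TT : Subgroup (symplecticGroup (Fin m) F) :=
  ⨅ i : ι, stabilizing (spToMat m F) ((Submodule.span F {𝐞 i} : Submodule F (ι → F)) : Set (ι → F))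

lemma sp_cancel (g : symplecticGroup (Fin m) F) (v : ι → F) : (g⁻¹).1 *ᵥ (g.1 *ᵥ v) = v := by
  rw [mulVec_mulVec, ← Submonoid.coe_mul, inv_mul_cancel, Submonoid.coe_one, one_mulVec]

lemma sp_ne (g : symplecticGroup (Fin m) F) {a b : ι} {c : F} (h : g.1 *ᵥ (𝐞 a) = c • 𝐞 b) :
    c ≠ 0 := by
  rintro rfl
  have := sp_cancel g (𝐞 a)
  rw [h, zero_smul, mulVec_zero] at this
  simpa using congrFun this a

lemma mem_TT {t : symplecticGroup (Fin m) F} :
    t ∈ TT F m ↔ ∀ a, ∃ c : F, t.1 *ᵥ (𝐞 a) = c • 𝐞 a := by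
  rw [Subgroup.mem_iInf]
  refine forall_congr' fun a => ⟨fun h => ?_, fun ⟨c, hc⟩ v => ⟨fun hv => ?_, fun hv => ?_⟩⟩
  · obtain ⟨c, hc⟩ := Submodule.mem_span_singleton.1 ((h _).1 (Submodule.mem_span_singleton_self _))
    exact ⟨c, hc.symm⟩
  · obtain ⟨d, rfl⟩ := Submodule.mem_span_singleton.1 hv
    exact Submodule.mem_span_singleton.2 ⟨d * c, by
      rw [mul_smul, ← hc, ← mulVec_smul]; rfl⟩
  · obtain ⟨d, hd⟩ := Submodule.mem_span_singleton.1 hv
    refine Submodule.mem_span_singleton.2 ⟨d / c, ?_⟩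
    rw [← sp_cancel t v, ← show d • (𝐞 a) = t.1 *ᵥ v from hd, ← sp_cancel t ((d / c) • 𝐞 a),
      mulVec_smul, hc, smul_smul, div_mul_cancel₀ _ (sp_ne t hc)]

lemma pπ_surj (p : Par F m) (b : ι) : ∃ a, pπ p a = b := by
  rcases b with j | j <;> obtain ⟨i, rfl⟩ := p.1.surjective j <;> cases h : p.2.1 i
  exacts [⟨.inl i, by simp [pπ, sd, h]⟩, ⟨.inr i, by simp [pπ, sd, h]⟩,
    ⟨.inr i, by simp [pπ, sd, h]⟩, ⟨.inl i, by simp [pπ, sd, h]⟩]

theorem s0777 [Fintype F] (hq : 4 ≤ Fintype.card F) :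
    Nat.card (Subgroup.normalizer (TT F m : Set (symplecticGroup (Fin m) F))) =
      2 ^ m * m.factorial * (Fintype.card F - 1) ^ m := by
  classical
  obtain ⟨l, l0, l1⟩ : ∃ l : F, l ≠ 0 ∧ l * l ≠ 1 := by
    obtain ⟨l, -, h⟩ := Finset.exists_mem_notMem_of_card_lt_card (s := ({0, 1, -1} : Finset F))
      (t := Finset.univ) (Finset.card_le_three.trans_lt (by rw [Finset.card_univ]; omega))
    simp only [Finset.mem_insert, Finset.mem_singleton, not_or] at h
    exact ⟨l, h.1, by rw [Ne, mul_self_eq_one_iff]; tauto⟩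
  let Θ : Par F m → Subgroup.normalizer (TT F m : Set (symplecticGroup (Fin m) F)) := fun p =>
    ⟨⟨pM p, pM_mem p⟩, Subgroup.mem_normalizer_fintype fun t ht => mem_TT.2 fun b => by
      obtain ⟨a, rfl⟩ := pπ_surj p b
      obtain ⟨c, hc⟩ := mem_TT.1 ht a
      have h0 := sp_ne ⟨pM p, pM_mem p⟩ (pM_e p a)
      refine ⟨c, smul_right_injective _ h0 ?_⟩
      simp only
      rw [← mulVec_smul, smul_comm, ← pM_e, Submonoid.coe_mul, Submonoid.coe_mul, ← mulVec_mulVec,
        sp_cancel ⟨pM p, pM_mem p⟩, ← mulVec_mulVec, hc, mulVec_smul]⟩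
  rw [← Nat.card_eq_of_bijective Θ ⟨?_, ?_⟩]
  · simp [Fintype.card_perm, Fintype.card_units]; ring
  · rintro ⟨σ, s, c⟩ ⟨σ', s', c'⟩ h
    have : ∀ i, sd (s i) (σ i) = sd (s' i) (σ' i) ∧ c i = c' i := fun i => by
      have := congrArg (fun g => g.1.1 (sd (s i) (σ i)) (.inl i)) h
      simp only [Θ, pM, of_apply, pπ, pd, Sum.elim_inl, if_true] at this
      by_cases h1 : sd (s i) (σ i) = sd (s' i) (σ' i)
      · exact ⟨h1, Units.ext (this.trans (if_pos h1))⟩
      · exact absurd (this.trans (if_neg h1)) (c i).ne_zero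
    have h2 : ∀ i, s i = s' i ∧ σ i = σ' i := fun i => by
      have := (this i).1
      cases h1 : s i <;> cases h2 : s' i <;> simp_all [sd]
    exact Prod.ext (Equiv.ext fun i => (h2 i).2)
      (Prod.ext (funext fun i => (h2 i).1) (funext fun i => (this i).2))
  rintro ⟨g, hg⟩
  have key : ∀ a, ∃ b, ∃ d : F, g.1 *ᵥ (𝐞 a) = d • 𝐞 b := fun a => by
    obtain ⟨b, hb⟩ : ∃ b, (g.1 *ᵥ (𝐞 a)) b ≠ 0 := by
      by_contra! hc
      exact sp_ne g (b := a) (c := 0) (funext fun b => by rw [hc]; simp) rfl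
    refine ⟨b, (g.1 *ᵥ (𝐞 a)) b, funext fun b' => ?_⟩
    by_cases e : b' = b
    · simp [e]
    rw [Pi.smul_apply, Pi.single_eq_of_ne e, smul_zero]
    let p : Par F m := (1, fun _ => false, Function.update 1 (b.elim id id) (Units.mk0 l l0))
    have h1 : ∀ a, pπ p a = a := by rintro (i | i) <;> rfl
    obtain ⟨c, hc⟩ := mem_TT.1 ((Subgroup.mem_normalizer_iff''.1 hg ⟨pM p, pM_mem p⟩).1
      (mem_TT.2 fun a => ⟨_, by rw [pM_e, h1]⟩)) a
    have h2 := congrArg (g.1 *ᵥ ·) hc
    simp only [Submonoid.coe_mul, ← mulVec_mulVec, mulVec_smul] at h2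
    rw [show ∀ v, g.1 *ᵥ ((g⁻¹).1 *ᵥ v) = v from by simpa only [inv_inv] using sp_cancel g⁻¹] at h2
    generalize g.1 *ᵥ (𝐞 a) = w at hb h2
    have h3 : ∀ k, pd p k * w k = c * w k := fun k => by
      simpa [pM, h1, mulVec, dotProduct] using congrFun h2 k
    by_contra h4
    have h5 := (mul_right_cancel₀ hb (h3 b)).trans (mul_right_cancel₀ h4 (h3 b')).symm
    have l2 : l ≠ 1 := fun e => l1 (by simp [e])
    have l3 : l ≠ l⁻¹ := fun e => l1 (by nth_rw 2 [e]; exact mul_inv_cancel₀ l0)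
    rcases b with i | i <;> rcases b' with j | j <;> by_cases h6 : j = i <;>
      simp [pd, p, h6, l2, l3, l3.symm] at h5 e ⊢
  choose π d hd using key
  have hJ : ∀ a b, d a * (d b * J (Fin m) F (π a) (π b)) = J (Fin m) F a b := fun a b => by
    have := mem_symplecticGroup_iff.1 g.2 (𝐞 a) (𝐞 b)
    rw [hd, hd, ← sB_apply, symp_e] at this
    simpa [sB_apply, symp_e, mul_left_comm] using this
  have d0 : ∀ a, d a ≠ 0 := fun a => sp_ne g (hd a)
  have h1 : ∀ i, π (.inr i) = (π (.inl i)).swap := fun i => by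
    have := hJ (.inl i) (.inr i)
    rcases h : π (.inl i) with j | j <;> rcases h' : π (.inr i) with k | k <;>
      by_cases e : j = k <;> simp_all [J, one_apply]
  have h2 : Function.Injective fun i => (π (.inl i)).elim id id := fun i j e => by
    by_contra hij
    have a := hJ (.inl i) (.inr j)
    have b := hJ (.inl i) (.inl j)
    rw [h1] at a
    rcases h : π (.inl i) with k | k <;> rcases h' : π (.inl j) with k' | k' <;>
      simp_all [J, one_apply]
  refine ⟨(Equiv.ofBijective _ (Finite.injective_iff_bijective.1 h2), fun i => (π (.inl i)).isRight,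
    fun i => Units.mk0 (d (.inl i)) (d0 _)), Subtype.ext (Subtype.ext ?_)⟩
  refine Matrix.toLin'.injective ((Pi.basisFun F ι).ext fun a => ?_)
  simp only [Pi.basisFun_apply, toLin'_apply, Θ, pM_e, hd]
  rcases a with i | i
  · rcases h : π (.inl i) with k | k <;> simp [pd, pπ, sd, h]
  · have a := hJ (.inl i) (.inr i)
    have b := d0 (.inl i)
    rw [h1] at a ⊢
    rcases h : π (.inl i) with k | k <;> simp [h, J] at a
    · simp [pd, pπ, sd, h, eq_inv_of_mul_eq_one_right a]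
    · simp [pd, pπ, sd, h, show d (.inr i) = -(d (.inl i))⁻¹ by field_simp; linear_combination a]

end Tor

end H4.El
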