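import Cfsg.Agent.H4.CpH
import Cfsg.Agent.H4.ElA

/-! Elements of prime order of orthogonal groups fixing nonsingular points. -/

set_option autoImplicit false

namespace H4.Au
open Matrix Cfsg Cfsg.Geo Subgroup Module H4.As

local notation "QF" F "," ι => Form (quadKind F) (ι → F)

section Fpf
variable {F : Type*} [Field F] [Fintype F] {V : Type*} [AddCommGroup V] [Module F V]
  [FiniteDimensional F V] {f : Form (quadKind F) V} {r d : ℕ} [hr : Fact r.Prime]

variable (f r) in
/-- there is a fixed point free isometry of order `r` -/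
def Fpf : Prop := ∃ x : f.Isom, x ^ r = 1 ∧ ∀ v, x.1 v = v → v = 0

omit [Fintype F] [FiniteDimensional F V] hr in
lemma Fpf.trans {W : Type*} [AddCommGroup W] [Module F W] {g : Form (quadKind F) W} (h : Fpf f r)
    {e : V ≃ₗ[F] W} (he : f.IsIso g e) : Fpf g r := by
  obtain ⟨x, h1, h2⟩ := h
  refine ⟨he.isomEquiv x, by rw [← map_pow, h1, map_one], fun v hv => ?_⟩
  obtain ⟨v, rfl⟩ := e.surjective v
  rw [h2 v (e.injective (by simpa using hv)), map_zero]

lemma Fpf.dvd (h : Fpf f r) : r ∣ f.cnt 1 := by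
  classical
  obtain ⟨x, h1, h2⟩ := h
  haveI : Finite V := Module.finite_of_finite F
  let φ : Function.End {v // f.Q v = 1} := fun v => ⟨x.1 v, (Form.isom_Q x v).trans v.2⟩
  have e : ∀ i v, ((φ ^ i) v : V) = (x ^ i).1 v := fun i v => by
    induction i with
    | zero => rfl
    | succ i ih => rw [pow_succ', pow_succ', Form.isom_mul_apply, ← ih]; rfl
  haveI := Fintype.ofFinite {v // f.Q v = 1}
  have := Equiv.Perm.card_fixedPoints_modEq (f := φ) (p := r) (n := 1)
    (funext fun v => Subtype.ext (by rw [pow_one, e, h1]; rfl))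
  rw [Fintype.card_eq_zero_iff.2 ⟨fun v : φ.fixedPoints => by
    have := v.1.2
    rw [h2 _ (congrArg Subtype.val v.2), Form.Q_zero] at this
    exact zero_ne_one this⟩, ← Nat.card_eq_fintype_card] at this
  exact (Nat.modEq_zero_iff_dvd).1 this

lemma exists_ext (hd : d ≠ 0) : ∃ (K : Type) (_ : Field K) (_ : Fintype K) (_ : Algebra F K),
    finrank F K = d ∧ Fintype.card K = Fintype.card F ^ d := by
  obtain ⟨p, hp⟩ := CharP.exists F
  haveI := Fact.mk (CharP.char_is_prime F p)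
  haveI := NeZero.mk hd
  letI := Fintype.ofFinite (FiniteField.Extension F p d)
  exact ⟨FiniteField.Extension F p d, inferInstance, inferInstance, inferInstance,
    FiniteField.finrank_extension F p d, by
      rw [← Nat.card_eq_fintype_card, FiniteField.natCard_extension, Nat.card_eq_fintype_card]⟩

omit [Fintype F] in
lemma exists_root1 {K : Type*} [Field K] [Fintype K] (h : r ∣ Fintype.card K - 1) :
    ∃ z : K, z ≠ 0 ∧ z ≠ 1 ∧ z ^ r = 1 := by
  classical
  obtain ⟨z, hz⟩ := exists_prime_orderOf_dvd_card (G := Kˣ) r (by rwa [Fintype.card_units])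
  exact ⟨z, z.ne_zero, fun e => hr.out.one_lt.ne' (by
    rw [← hz, show z = 1 from Units.ext e, orderOf_one]), by
      rw [← Units.val_pow_eq_pow_val, ← hz, pow_orderOf_eq_one, Units.val_one]⟩

lemma dvd_plus (hf : f.ND) (hn : finrank F V = 2 * d) (ht : f.HasTS d) (h : r ∣ f.cnt 1)
    (h1 : ¬ r ∣ Fintype.card F) : r ∣ Fintype.card F ^ d - 1 := by
  have := (plus_cnt d V f hf hn ht).2 1 one_ne_zero
  have h3 : 1 ≤ Fintype.card F ^ d := Nat.one_le_pow _ _ Fintype.card_pos
  have h4 : Fintype.card F * f.cnt 1 = Fintype.card F ^ d * (Fintype.card F ^ d - 1) := by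
    zify [h3]; rw [← Nat.card_eq_fintype_card, this]; ring
  exact ((Nat.Prime.dvd_mul hr.out).1 (h4 ▸ h.mul_left _)).resolve_left
    fun e => h1 (hr.out.dvd_of_dvd_pow e)

theorem fpf_plus (hf : f.ND) (hn : finrank F V = 2 * d) (ht : f.HasTS d) (hd : d ≠ 0)
    (h : r ∣ Fintype.card F ^ d - 1) : Fpf f r := by
  obtain ⟨K, _, _, _, h1, h2⟩ := exists_ext (F := F) hd
  obtain ⟨z, z0, z1, hz⟩ := exists_root1 (h2 ▸ h)
  obtain ⟨τ, -, h4⟩ := exists_dual_eq (Z := ⊥) (x := (1 : K)) (by simp) (1 : F)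
  let g : Form (quadKind F) (K × K) := mkQuad (fun a => τ (a.1 * a.2))
    (LinearMap.mk₂ F (fun a b => τ (a.1 * b.2 + b.1 * a.2)) (by intros; simp [mul_add, add_mul]; ring)
      (by intros; simp [mul_add]) (by intros; simp [mul_add, add_mul]; ring)
      (by intros; simp [mul_add])) (by intros; simp [mul_add, add_mul]; ring)
    (by intros; simp [mul_assoc])
  have hg : g.ND := fun a ha => by
    have e1 : τ _ = 0 := ha (0, a.1⁻¹)
    have e2 : τ _ = 0 := ha (a.2⁻¹, 0)
    ext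
    · by_contra e; simp [show a.1 ≠ 0 from e, h4] at e1
    · by_contra e; simp [show a.2 ≠ 0 from e, h4] at e2
  obtain ⟨e, he⟩ := even_exists_isIso hg hf (by simp [h1, two_mul]) hn (iff_of_true
    ⟨LinearMap.range (LinearMap.inl F K K), (quad_TS_iff _).2 (by
      rintro _ ⟨a, rfl⟩; change τ _ = 0; simp), by
      rw [LinearMap.finrank_range_of_inj LinearMap.inl_injective, h1]⟩ ht)
  let x : g.Isom := ⟨((LinearEquiv.smulOfNeZero K K z z0).prodCongr
    (LinearEquiv.smulOfNeZero K K z⁻¹ (inv_ne_zero z0))).restrictScalars F,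
    (quad_mem_Isom _).2 fun a => congrArg τ (by
      change z * a.1 * (z⁻¹ * a.2) = a.1 * a.2; field_simp)⟩
  have hx : ∀ i a, (x ^ i).1 a = (z ^ i * a.1, z⁻¹ ^ i * a.2) := fun i a => by
    induction i with
    | zero => simp
    | succ i ih =>
      rw [pow_succ', Form.isom_mul_apply, ih, pow_succ', pow_succ', mul_assoc, mul_assoc]; rfl
  refine Fpf.trans ⟨x, Form.isom_ext fun a => (hx r a).trans (by
    rw [inv_pow, hz, inv_one, one_mul, one_mul]; rfl), fun a ha => ?_⟩ he
  have e1 : z * a.1 = a.1 := congrArg Prod.fst ha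
  have e2 : z⁻¹ * a.2 = a.2 := congrArg Prod.snd ha
  exact Prod.ext (by_contra fun e => z1 (mul_right_cancel₀ e (e1.trans (one_mul _).symm)))
    (by_contra fun e => z1 (inv_eq_one.1 (mul_right_cancel₀ e (e2.trans (one_mul _).symm))))

theorem fpf_minus (hf : f.ND) (hn : finrank F V = 2 * d) (ht : ¬ f.HasTS d) (hd : d ≠ 0)
    (h : r ∣ Fintype.card F ^ d + 1) (h2 : r ≠ 2) : Fpf f r := by
  obtain ⟨K, _, _, _, h1, hK⟩ := exists_ext (F := F) (d := d * 2) (by omega)
  rw [pow_mul] at hK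
  obtain ⟨z, z0, z1, hz⟩ := exists_root1 (r := r) (K := K) (by
    rw [hK, Nat.sq_sub_sq _ 1]; exact h.mul_right _)
  obtain ⟨τ, -, h4⟩ := exists_dual_eq (Z := ⊥) (x := (1 : K)) (by simp) (1 : F)
  let σ := frobq hK
  have hσ : ∀ (c : F) (a : K), σ (c • a) = c • σ a := fun c a => by
    rw [Algebra.smul_def, map_mul, frobq_apply, ← map_pow, FiniteField.pow_card_pow,
      Algebra.smul_def]
  let g : Form (quadKind F) K := mkQuad (fun a => τ (a * σ a))
    (LinearMap.mk₂ F (fun a b => τ (a * σ b + b * σ a))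
      (by intros; simp only [mul_add, add_mul, map_add]; ring)
      (by intros; simp only [hσ, smul_mul_assoc, mul_smul_comm, ← smul_add, map_smul])
      (by intros; simp only [mul_add, add_mul, map_add]; ring)
      (by intros; simp only [hσ, smul_mul_assoc, mul_smul_comm, ← smul_add, map_smul]))
    (by intros; simp only [mul_add, add_mul, map_add, LinearMap.mk₂_apply]; ring)
    (by intros; simp only [hσ, smul_mul_assoc, mul_smul_comm, map_smul, smul_eq_mul, mul_assoc])
  have hg : g.ND := fun a ha => by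
    by_contra e
    obtain ⟨s, hs⟩ := exists_trace_eq_q hK (μ := 1) (one_pow _)
    have e1 : τ _ = 0 := ha (σ (s / a))
    rw [frobq_frobq, ← map_mul, mul_div_cancel₀ _ e, div_mul_cancel₀ _ e, frobq_apply, hs, h4] at e1
    exact one_ne_zero e1
  have hz' : z * σ z = 1 := by
    obtain ⟨k, hk⟩ := h
    rw [frobq_apply, ← pow_succ', hk, pow_mul, hz, one_pow]
  let x : g.Isom := ⟨(LinearEquiv.smulOfNeZero K K z z0).restrictScalars F,
    (quad_mem_Isom _).2 fun a => congrArg τ (by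
      change z * a * σ (z * a) = a * σ a; rw [map_mul]; linear_combination (a * σ a) * hz')⟩
  have hx : ∀ i a, (x ^ i).1 a = z ^ i * a := fun i a => by
    induction i with
    | zero => simp
    | succ i ih => rw [pow_succ', Form.isom_mul_apply, ih, pow_succ', mul_assoc]; rfl
  have key : Fpf g r := ⟨x, Form.isom_ext fun a => (hx r a).trans (by rw [hz, one_mul]; rfl),
    fun a (ha : z * a = a) =>
    by_contra fun e => z1 (mul_right_cancel₀ e (ha.trans (one_mul _).symm))⟩
  have hn' : finrank F K = 2 * d := by rw [h1, mul_comm]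
  suffices hnt : ¬ g.HasTS d by
    obtain ⟨e, he⟩ := even_exists_isIso hg hf hn' hn (iff_of_false hnt ht)
    exact key.trans he
  refine fun ht' => h2 ?_
  have := dvd_plus hg hn' ht' key.dvd fun e => hr.out.one_lt.ne' (Nat.dvd_one.1
    ((Nat.dvd_add_right (dvd_pow e hd)).1 h))
  have h3 : 1 ≤ Fintype.card F ^ d := Nat.one_le_pow _ _ Fintype.card_pos
  refine (Nat.prime_dvd_prime_iff_eq hr.out Nat.prime_two).1 ((Nat.dvd_add_right this).1 ?_)
  rwa [show _ - 1 + 2 = Fintype.card F ^ d + 1 by omega]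

end Fpf

section Two
variable {ι : Type} [Fintype ι] [DecidableEq ι] {F : Type*} [Field F] [Fintype F] {f : QF F, ι}
  (h2 : (2 : F) = 0) (hf : f.ND) (hn : 5 ≤ Fintype.card ι) {r : ℕ}
include h2

omit [Fintype F] in
lemma sq_one {c : F} (h : c * c = 1) : c = 1 :=
  (mul_self_eq_one_iff.1 h).elim id fun e => by linear_combination e - h2

omit [DecidableEq ι] in
lemma card_lines : Nat.card {W : Submodule F (ι → F) // finrank F W = 1 ∧ ∃ v ∈ W, f.Q v ≠ 0} =
    f.cnt 1 := by
  refine (Nat.card_eq_of_bijective (fun v : {v // f.Q v = 1} => ⟨F ∙ v.1, finrank_span_singleton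
    (fun e => by simpa [e, f.Q_zero] using v.2), v, Submodule.mem_span_singleton_self _, by
      simp [v.2]⟩) ⟨fun v w e => ?_, ?_⟩).symm
  · obtain ⟨c, hc⟩ := Submodule.mem_span_singleton.1
      ((congrArg Subtype.val e).le (Submodule.mem_span_singleton_self _))
    have := congrArg f.Q hc
    rw [quad_Q_smul, v.2, w.2, mul_one, sq] at this
    exact Subtype.ext (by rw [← hc, sq_one h2 this, one_smul])
  · rintro ⟨W, h1, v, hv, h0⟩
    obtain ⟨c, hc⟩ := exists_sq_of_two_eq_zero h2 (f.Q v)⁻¹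
    have h3 : f.Q (c • v) = 1 := by rw [quad_Q_smul, hc, inv_mul_cancel₀ h0]
    exact ⟨⟨c • v, h3⟩, Subtype.ext (Submodule.eq_of_le_of_finrank_eq
      ((Submodule.span_singleton_le_iff_mem _ _).2 (W.smul_mem _ hv))
        ((finrank_span_singleton fun (e : c • v = 0) => by
          rw [e, f.Q_zero] at h3; exact zero_ne_one h3).trans h1.symm))⟩

include hf hn

lemma el_iff (hr : r ≠ 0) : (∀ x : GL ι F, x ∈ omegaGL f.Q →
    (∃ z : F, ((x ^ r : GL ι F) : Matrix ι ι F) = z • (1 : Matrix ι ι F)) →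
    (∀ z : F, (x : Matrix ι ι F) ≠ z • (1 : Matrix ι ι F)) →
    ∃ W : Submodule F (ι → F), (finrank F W = 1 ∧ ∃ v ∈ W, f.Q v ≠ 0) ∧
      W.map (toLin' (x : Matrix ι ι F)) ≤ W) ↔
    ∀ x : f.Isom, dick x = 1 → x ^ r = 1 → x ≠ 1 → ∃ v, f.Q v ≠ 0 ∧ x.1 v = v := by
  haveI : Nonempty ι := Fintype.card_pos_iff.1 (by omega)
  obtain ⟨v₀, h0⟩ := exists_Q_ne hf
  have sc1 : ∀ (x : f.Isom) (z : F), (f.toGL x).1 = z • (1 : Matrix ι ι F) → x = 1 := fun x z e => by
    have e1 : ∀ v, x.1 v = z • v := fun v => by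
      rw [← Form.toGL_mulVec, e, smul_mulVec, one_mulVec]
    have := Form.isom_Q x v₀
    rw [e1, quad_Q_smul, sq, mul_left_eq_self₀, or_iff_left h0] at this
    exact Form.isom_ext fun v => by rw [e1, sq_one h2 this, one_smul]; rfl
  refine ⟨fun H x h1 h3 h4 => ?_, fun H x h1 ⟨z, hz⟩ h4 => ?_⟩
  · obtain ⟨W, ⟨h5, v, hv, h6⟩, h7⟩ := H (f.toGL x) ((mem_om hf hn).2
      ⟨toGL_mem x, (dk_toGL x).trans h1, sp_two h2 _⟩) ⟨1, by rw [← map_pow, h3]; simp⟩
      fun z e => h4 (sc1 x z e)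
    have h8 : W = F ∙ v := (Submodule.eq_of_le_of_finrank_eq
      ((Submodule.span_singleton_le_iff_mem _ _).2 hv) (by
        rw [h5, finrank_span_singleton fun e => by simp [e, f.Q_zero] at h6])).symm
    obtain ⟨c, hc⟩ := Submodule.mem_span_singleton.1 (h8.le (h7 ⟨v, hv, rfl⟩))
    rw [toLin'_apply, Form.toGL_mulVec] at hc
    have := Form.isom_Q x v
    rw [← hc, quad_Q_smul, sq, mul_left_eq_self₀, or_iff_left h6] at this
    exact ⟨v, h6, by rw [← hc, sq_one h2 this, one_smul]⟩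
  · obtain ⟨h5, h6, -⟩ := (mem_om hf hn).1 h1
    obtain ⟨x, rfl⟩ := exists_toGL h5
    obtain ⟨v, h7, h8⟩ := H x ((dk_toGL x).symm.trans h6) (sc1 _ z (by rwa [map_pow]))
      fun e => h4 1 (by simp [e])
    refine ⟨F ∙ v, ⟨finrank_span_singleton fun e => by simp [e, f.Q_zero] at h7, v,
      Submodule.mem_span_singleton_self v, h7⟩, ?_⟩
    rw [Submodule.map_span, Set.image_singleton, toLin'_apply, Form.toGL_mulVec, h8]

omit h2 in
lemma Fpf.not_el (h : Fpf f r) (ho : Odd r) :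
    ¬ ∀ x : f.Isom, dick x = 1 → x ^ r = 1 → x ≠ 1 → ∃ v, f.Q v ≠ 0 ∧ x.1 v = v := fun H => by
  haveI : Nonempty ι := Fintype.card_pos_iff.1 (by omega)
  obtain ⟨x, h1, h3⟩ := h
  obtain ⟨v₀, h0⟩ := exists_Q_ne hf
  obtain ⟨v, h4, h5⟩ := H x ((dk_toGL x).symm.trans ((mem_om hf hn).1 (odd_mem_om hf hn
    (toGL_mem x) ho (by rw [← map_pow, h1, map_one]))).2.1) h1 fun e => by
      rw [h3 v₀ (by rw [e]; rfl), f.Q_zero] at h0; exact h0 rfl
  rw [h3 v h5, f.Q_zero] at h4
  exact h4 rfl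

omit hn [Fintype F] [DecidableEq ι] in
lemma inv_ts {d : ℕ} (he : Fintype.card ι = 2 * d) {x : f.Isom} (hx : x ^ 2 = 1)
    (H : ∀ v, x.1 v = v → f.Q v = 0) : f.HasTS d ∧ finrank F (mov x) = d := by
  let L : (ι → F) →ₗ[F] (ι → F) := LinearMap.id - x.1.toLinearMap
  have hT : f.TS (LinearMap.ker L) := (quad_TS_iff _).2 fun v hv => H v (sub_eq_zero.1 hv).symm
  have h1 := Submodule.finrank_mono hT.le_perp
  have h3 := hf.finrank_perp (LinearMap.ker L)
  have h4 := LinearMap.finrank_range_add_finrank_ker L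
  have h5 : LinearMap.range L ≤ LinearMap.ker L := by
    rintro _ ⟨v, rfl⟩
    have : x.1 (x.1 v) = v := by rw [← Form.isom_mul_apply, ← sq, hx]; rfl
    simp only [L, LinearMap.mem_ker, LinearMap.sub_apply, LinearMap.id_apply, LinearEquiv.coe_coe,
      map_sub, this]
    linear_combination (norm := module) h2 • (v - x.1 v)
  have h6 := Submodule.finrank_mono h5
  rw [finrank_fintype_fun_eq_card, he] at h3 h4
  exact ⟨⟨_, hT, by omega⟩, show finrank F (LinearMap.range L) = d by omega⟩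

end Two

variable {F : Type*} [Field F] [Fintype F] (h2 : (2 : F) = 0) {r : ℕ} [hr : Fact r.Prime]
include h2

lemma not_dvd_card (h : r ≠ 2) : ¬ r ∣ Fintype.card F := fun e => by
  haveI := CharTwo.of_one_ne_zero_of_two_eq_zero one_ne_zero h2
  obtain ⟨n, -, h1⟩ := FiniteField.card F 2
  exact h ((Nat.prime_dvd_prime_iff_eq hr.out Nat.prime_two).1 (hr.out.dvd_of_dvd_pow (h1 ▸ e)))

theorem s5986 {m : ℕ} (hm : 3 ≤ m) {a b : F}
    (hab : ∀ z₁ z₂ : F, z₁ ^ 2 + a * z₁ * z₂ + b * z₂ ^ 2 = 0 → z₁ = 0 ∧ z₂ = 0)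
    (h : r ∣ (minusForm F m a b).cnt 1) : (∀ x : (minusForm F m a b).Isom, dick x = 1 → x ^ r = 1 →
      x ≠ 1 → ∃ v, (minusForm F m a b).Q v ≠ 0 ∧ x.1 v = v) ↔ r = 2 := by
  have hf := minusForm_ND m hab
  have ht := minusForm_not_hasTS m hab
  refine ⟨fun H => by_contra fun e => Fpf.not_el hf (five_le hm) (fpf_minus hf (d := m + 1)
    (by simpa using card_mm m) ht (by omega) ?_ e) (hr.out.odd_of_ne_two e) H, ?_⟩
  · have := (minus_cnt m _ _ hf (by simp; omega) ht).2 1 one_ne_zero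
    have h4 : (minusForm F m a b).cnt 1 = Fintype.card F ^ m * (Fintype.card F ^ (m + 1) + 1) := by
      zify; rw [← Nat.card_eq_fintype_card, this]; ring
    exact ((Nat.Prime.dvd_mul hr.out).1 (h4 ▸ h)).resolve_left
      fun e' => not_dvd_card h2 e (hr.out.dvd_of_dvd_pow e')
  · rintro rfl x - hx -
    by_contra! H
    exact ht (inv_ts h2 hf (card_mm m) hx fun v hv => by_contra fun e => H v e hv).1

theorem s5985 {d : ℕ} (hd : 4 ≤ d) (h : r ∣ (plusForm F d).cnt 1) :
    (∀ x : (plusForm F d).Isom, dick x = 1 → x ^ r = 1 →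
      x ≠ 1 → ∃ v, (plusForm F d).Q v ≠ 0 ∧ x.1 v = v) ↔ r = 2 ∧ Odd d := by
  have hf := plusForm_ND F d
  have ht := plusForm_hasTS (F := F) d
  have hn : 5 ≤ Fintype.card (Fin d ⊕ Fin d) := by simp; omega
  refine ⟨fun H => ?_, ?_⟩
  swap
  · rintro ⟨rfl, ho⟩ x h1 hx -
    by_contra! H
    rw [dick, (inv_ts h2 hf (card_pm d) hx fun v hv => by_contra fun e => H v e hv).2,
      ho.neg_one_pow] at h1
    exact absurd h1 (by decide)
  obtain rfl : r = 2 := by_contra fun e => Fpf.not_el hf hn (fpf_plus hf (finrank_plus F d) ht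
    (by omega) (dvd_plus hf (finrank_plus F d) ht h (not_dvd_card h2 e))) (hr.out.odd_of_ne_two e) H
  refine ⟨rfl, Nat.not_even_iff_odd.1 fun ⟨k, hk⟩ => ?_⟩
  let L : (Fin d ⊕ Fin d → F) →ₗ[F] (Fin d ⊕ Fin d → F) :=
    { toFun := fun v => Sum.elim (fun i => v (.inl i) + v (.inr i.rev)) fun i => v (.inr i)
      map_add' := fun v w => by ext (i | i) <;> simp; ring
      map_smul' := fun c v => by ext (i | i) <;> simp [mul_add] }
  have hL : Function.Involutive L := fun v => by
    ext (i | i) <;> simp [L]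
    linear_combination v (.inr i.rev) * h2
  let x : (plusForm F d).Isom := ⟨LinearEquiv.ofInvolutive L hL, (quad_mem_Isom _).2 fun v => by
    change ∑ i, (v (.inl i) + v (.inr i.rev)) * v (.inr i) = ∑ i, v (.inl i) * v (.inr i)
    simp only [add_mul, Finset.sum_add_distrib, add_eq_left]
    exact Finset.sum_ninvolution Fin.rev (fun i => by
      rw [Fin.rev_rev]; linear_combination v (.inr i.rev) * v (.inr i) * h2)
      (fun i _ e => by have := congrArg Fin.val e; simp at this; omega)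
      (fun _ => Finset.mem_univ _) Fin.rev_rev⟩
  obtain ⟨v, h3, h4⟩ := H x (dick_eq_one_of_stab hf (hgen hf hn) (finrank_plus F d) (TS_U0 F d)
    (finrank_U0 F d) (Form.mem_stabSub_of_le _ fun v hv => mem_U0.2 fun i => mem_U0.1 hv i))
    (Form.isom_ext fun v => hL v) fun e => by
      have := congrFun (congrArg (fun g : (plusForm F d).Isom => g.1 1) e) (.inl ⟨0, by omega⟩)
      exact one_ne_zero (add_eq_left.1 this)
  refine h3 ((TS_U0 F d).1 v (mem_U0.2 fun i => ?_))
  simpa using add_eq_left.1 (congrFun h4 (.inl i.rev))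

end H4.Au
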