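import Cfsg.Agent.H4.ElC
import Cfsg.Agent.H4.TbE

/-! Quadratic forms polarising to a fixed symplectic form in characteristic two. -/

set_option autoImplicit false

namespace H4.Au
open Matrix Cfsg Cfsg.Geo Subgroup Module H4.As

local notation "QF" F "," ι => Form (quadKind F) (ι → F)

variable {ι : Type} [Fintype ι] [DecidableEq ι] {F : Type*} [Field F] [Fintype F] {f g : QF F, ι}
  (h2 : (2 : F) = 0) (hf : f.ND) {d : ℕ} (he : Fintype.card ι = 2 * d)

/-- the twisted form -/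
def qtw (f : QF F, ι) (w : ι → F) : QF F, ι :=
  mkQuad (fun v => f.Q v + f.B w v ^ 2) f.B (fun x y => by
    change _ = _ + f.B x y
    rw [quad_Q_add, map_add]; linear_combination (f.B w x * f.B w y) * h2)
    (fun c x => by rw [quad_Q_smul, map_smul, smul_eq_mul]; ring)

/-- the pulled back form -/
def qpb (f : QF F, ι) (e : (ι → F) ≃ₗ[F] (ι → F)) (h : ∀ u v, f.B (e u) (e v) = f.B u v) :
    QF F, ι :=
  mkQuad (fun v => f.Q (e v)) f.B (fun x y => by rw [map_add, quad_Q_add, h]; rfl)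
    (fun c x => by rw [map_smul, quad_Q_smul, sq])

include h2

omit [Fintype F] in
lemma sq_inj {a b : F} (h : a ^ 2 = b ^ 2) : a = b :=
  (sq_eq_sq_iff_eq_or_eq_neg.1 h).elim id fun e => by linear_combination e - b * h2

include hf

omit [DecidableEq ι] in
lemma exists_qtw (hB : g.B = f.B) : ∃ w, ∀ v, g.Q v = f.Q v + f.B w v ^ 2 := by
  choose s hs using fun v => exists_sq_of_two_eq_zero h2 (g.Q v - f.Q v)
  obtain ⟨w, hw⟩ := hf.B_surj
    { toFun := s
      map_add' := fun u v => sq_inj h2 (by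
        rw [hs, quad_Q_add, quad_Q_add, hB]; linear_combination - hs u - hs v - s u * s v * h2)
      map_smul' := fun c v => sq_inj h2 (by
        simp only [RingHom.id_apply, smul_eq_mul, mul_pow, hs, quad_Q_smul]; ring) }
  exact ⟨w, fun v => by rw [hw]; exact sub_eq_iff_eq_add'.1 (hs v).symm⟩

omit [DecidableEq ι] in
lemma exists_qfix (x : (ι → F) ≃ₗ[F] (ι → F)) (hx : ∀ u v, f.B (x u) (x v) = f.B u v) :
    ∃ w, x ∈ (qtw h2 f w).Isom := by
  obtain ⟨c, hc⟩ := exists_qtw h2 hf (g := qpb f x hx) rfl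
  obtain ⟨ψ, hψ⟩ : f.B c ∈ LinearMap.range (LinearMap.id - x.toLinearMap).dualMap := by
    rw [LinearMap.range_dualMap_eq_dualAnnihilator_ker, Submodule.mem_dualAnnihilator]
    intro v hv
    have : f.Q (x v) = _ := hc v
    rw [show x v = v from (sub_eq_zero.1 hv).symm, left_eq_add] at this
    exact (pow_eq_zero_iff two_ne_zero).1 this
  obtain ⟨w, rfl⟩ := hf.B_surj ψ
  refine ⟨w, (quad_mem_Isom _).2 fun v => ?_⟩
  have h3 : f.B w (v - x v) = f.B c v := LinearMap.congr_fun hψ v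
  change f.Q (x v) + f.B w (x v) ^ 2 = f.Q v + f.B w v ^ 2
  rw [map_sub] at h3
  rw [show f.Q (x v) = _ from hc v, ← h3]
  linear_combination (f.B w (x v) ^ 2 - f.B w v * f.B w (x v)) * h2

include he

omit [DecidableEq ι] in
lemma exists_other (hd : d ≠ 0) {w : ι → F} (hw : f.Q w ≠ 0) :
    ∃ c : F, ¬ ((qtw h2 f (c • w)).HasTS d ↔ f.HasTS d) := by
  classical
  by_contra! H
  have hn : finrank F (ι → F) = 2 * d := by simpa
  have h1 : ∀ c : F, Nat.card {v // (qtw h2 f (c • w)).Q v = 0} = f.cnt 0 := fun c => by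
    obtain ⟨e, he⟩ := even_exists_isIso (f := qtw h2 f (c • w)) hf hf hn hn (H c)
    exact he.cnt_eq 0
  have h0 : f.B w w = 0 := by rw [quad_B_self, h2, zero_mul]
  have hq : ∀ (c : F) v, (qtw h2 f (c • w)).Q v = f.Q v + (c * f.B w v) ^ 2 := fun c v => by
    change f.Q v + f.B (c • w) v ^ 2 = _
    rw [quad_symm f (c • w), map_smul, quad_symm f v, smul_eq_mul]
  have ha : ∀ (c : F) v, f.B w v = 0 → f.Q (v + c • w) = f.Q v + c ^ 2 * f.Q w := fun c v h => by
    rw [quad_Q_add, quad_Q_smul, map_smul, quad_symm f v, h, smul_zero, add_zero]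
  have h3 : Nat.card (Σ c : F, {v // (qtw h2 f (c • w)).Q v = 0}) = Nat.card (ι → F) := by
    refine Nat.card_eq_of_bijective (fun p => if f.B w p.2 = 0 then p.2 + p.1 • w else p.2)
      ⟨?_, fun v => ?_⟩
    · rintro ⟨c, v, hv⟩ ⟨c', v', hv'⟩ e
      rw [hq] at hv hv'
      have e1 := congrArg (f.B w) e
      simp only [apply_ite (f.B w), map_add, map_smul, h0, smul_zero, add_zero, ite_self] at e1 e
      by_cases h : f.B w v = 0
      · rw [if_pos h, if_pos (e1 ▸ h)] at e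
        have e2 := congrArg f.Q e
        rw [ha _ _ h, ha _ _ (e1 ▸ h)] at e2
        rw [← e1] at hv'
        simp only [h, mul_zero, ne_eq, OfNat.ofNat_ne_zero, not_false_eq_true, zero_pow,
          add_zero] at hv hv'
        rw [hv, hv', add_right_inj, mul_left_inj' hw] at e2
        obtain rfl := sq_inj h2 e2
        obtain rfl := add_right_cancel e
        rfl
      · rw [if_neg h, if_neg (e1 ▸ h)] at e
        subst e
        obtain rfl := mul_right_cancel₀ h (sq_inj h2 (add_left_cancel (hv.trans hv'.symm)))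
        rfl
    by_cases h : f.B w v = 0
    · obtain ⟨c, hc⟩ := exists_sq_of_two_eq_zero h2 (f.Q v / f.Q w)
      have h4 : f.B w (v + c • w) = 0 := by rw [map_add, map_smul, h, h0, smul_zero, add_zero]
      refine ⟨⟨c, v + c • w, by
        rw [hq, h4, ha _ _ h, hc, div_mul_cancel₀ _ hw]; linear_combination f.Q v * h2⟩, ?_⟩
      simp only [if_pos h4]
      linear_combination (norm := module) h2 • c • w
    · obtain ⟨c, hc⟩ := exists_sq_of_two_eq_zero h2 (f.Q v / f.B w v ^ 2)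
      exact ⟨⟨c, v, by
        rw [hq, mul_pow, hc, div_mul_cancel₀ _ (pow_ne_zero 2 h)]
        linear_combination f.Q v * h2⟩, if_neg h⟩
  rw [Nat.card_sigma, Finset.sum_congr rfl fun c _ => h1 c, Finset.sum_const, Finset.card_univ,
    Module.natCard_eq_pow_finrank (K := F), hn, ← Nat.card_eq_fintype_card, smul_eq_mul] at h3
  have h5 : Nat.card F ^ d < Nat.card F ^ (d + 1) := Nat.pow_lt_pow_right Finite.one_lt_card d.lt_succ_self
  zify at h3 h5
  by_cases ht : f.HasTS d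
  · linarith [(plus_cnt d _ f hf hn ht).1]
  obtain ⟨m, rfl⟩ := Nat.exists_eq_succ_of_ne_zero hd
  rw [(minus_cnt m _ f hf hn ht).1] at h3
  exact h5.ne (by simp only [Nat.succ_eq_add_one] at h3 ⊢; linear_combination h3)

theorem s5983 (hd : d ≠ 0) (hg : Nat.card F ≠ 2 ∨ d ≠ 2) {r : ℕ} [hr : Fact r.Prime]
    (hp : r ≠ 2 → f.HasTS d → r ∣ Fintype.card F ^ d + 1)
    (hm : r ≠ 2 → ¬ f.HasTS d → r ∣ Fintype.card F ^ d - 1) :
    (∀ x : (ι → F) ≃ₗ[F] (ι → F), (∀ u v, f.B (x u) (x v) = f.B u v) → x ^ r = 1 → x ≠ 1 →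
      ∃ g : QF F, ι, g.B = f.B ∧ (g.HasTS d ↔ f.HasTS d) ∧ x ∈ g.Isom) ↔
    r = 2 ∧ (f.HasTS d ∨ Odd d) := by
  haveI : Nonempty ι := Fintype.card_pos_iff.1 (by omega)
  have hn : finrank F (ι → F) = 2 * d := by simpa
  refine ⟨fun H => ?_, ?_⟩
  swap
  · rintro ⟨rfl, h⟩ x hx h1 -
    obtain ⟨w, hw⟩ := exists_qfix h2 hf x hx
    by_cases ht : (qtw h2 f w).HasTS d ↔ f.HasTS d
    · exact ⟨qtw h2 f w, rfl, ht, hw⟩
    have hf' : (qtw h2 f w).ND := hf
    by_cases h3 : ∃ v, x v = v ∧ (qtw h2 f w).Q v ≠ 0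
    · obtain ⟨v, h4, h5⟩ := h3
      obtain ⟨c, hc⟩ := exists_other h2 hf' he hd h5
      refine ⟨qtw h2 (qtw h2 f w) (c • v), rfl, by tauto, (quad_mem_Isom _).2 fun u => ?_⟩
      change (qtw h2 f w).Q (x u) + f.B (c • v) (x u) ^ 2 = (qtw h2 f w).Q u + f.B (c • v) u ^ 2
      rw [hw.2, ← hx (c • v) u, map_smul x, h4]
    push Not at h3
    obtain ⟨h4, h5⟩ := inv_ts h2 hf' he (x := ⟨x, hw⟩) (Subtype.ext h1) h3
    let L : (ι → F) →ₗ[F] (ι → F) := LinearMap.id - x.toLinearMap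
    have h6 := LinearMap.finrank_range_add_finrank_ker L
    have h8 : finrank F (LinearMap.range L) = d := h5
    have h9 : ∀ v ∈ LinearMap.ker L, x v = v := fun v hv => (sub_eq_zero.1 hv).symm
    have h7 := dick_eq_one_of_stab hf' (hgen_of hf' (hg.imp id (by omega))) hn
      (U := LinearMap.ker L) (g := ⟨x, hw⟩) ((quad_TS_iff _).2 fun v hv => h3 v (h9 v hv))
      (by omega) (Form.mem_stabSub_of_le _ fun v hv => (h9 v hv).symm ▸ hv)
    rw [dick, h5, (h.resolve_left (by tauto)).neg_one_pow] at h7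
    exact absurd h7 (by decide)
  obtain ⟨w₀, h0⟩ := exists_Q_ne hf
  obtain ⟨c, hc⟩ := exists_other h2 hf he hd h0
  have hB : (qtw h2 f (c • w₀)).B = f.B := rfl
  have hf' : (qtw h2 f (c • w₀)).ND := hf
  generalize qtw h2 f (c • w₀) = k at hc hB hf'
  have key : ∀ x : k.Isom, x ^ r = 1 → ¬ ∀ v, x.1 v = v → k.Q v = 0 := fun x h1 h3 => by
    obtain ⟨v₀, h4⟩ := exists_Q_ne hf'
    obtain ⟨g, h5, h6, h7⟩ := H x (hB ▸ Form.isom_B x) (congrArg Subtype.val h1)
      fun e => h4 (h3 _ (by rw [e]; rfl))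
    obtain ⟨w, hw⟩ := exists_qtw h2 hf' (h5.trans hB.symm)
    have h8 := h3 w (sub_eq_zero.1 (hf' _ fun v => by
      obtain ⟨v, rfl⟩ := x.1.surjective v
      have := h7.2 v
      rw [hw, hw, Form.isom_Q, add_right_inj] at this
      rw [map_sub, LinearMap.sub_apply, Form.isom_B, sq_inj h2 this, sub_self]))
    have h9 : g.IsIso k (LinearEquiv.ofInvolutive (LinearMap.id + (k.B w).smulRight w) fun v => by
        simp only [LinearMap.add_apply, LinearMap.id_apply, LinearMap.smulRight_apply, map_add,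
          map_smul, quad_B_self, h8, mul_zero, smul_zero, add_zero, zero_smul]
        linear_combination (norm := module) h2 • k.B w v • w) := quad_isIso_of_Q fun v => by
      change k.Q (v + k.B w v • w) = _
      rw [hw, quad_Q_add, quad_Q_smul, h8, map_smul, quad_symm k v, smul_eq_mul]; ring
    exact hc (Iff.trans ⟨h9.symm.hasTS, h9.hasTS⟩ h6)
  obtain rfl : r = 2 := by_contra fun e => by
    obtain ⟨x, h1, h3⟩ : Fpf k r := by
      by_cases ht : f.HasTS d
      · exact fpf_minus hf' hn (by tauto) hd (hp e ht) e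
      · exact fpf_plus hf' hn (by tauto) hd (hm e ht)
    exact key x h1 fun v hv => by rw [h3 v hv, k.Q_zero]
  refine ⟨rfl, by_contra fun h => ?_⟩
  rw [not_or, Nat.not_odd_iff_even] at h
  obtain ⟨h, j, hj⟩ := h
  obtain ⟨e, he'⟩ := even_exists_isIso (plusForm_ND F d) hf' (finrank_plus F d) hn
    (iff_of_true (plusForm_hasTS d) (by tauto))
  let L : (Fin d ⊕ Fin d → F) →ₗ[F] (Fin d ⊕ Fin d → F) :=
    { toFun := fun v => Sum.elim (fun i => v (.inl i) + v (.inr i.rev)) fun i => v (.inr i)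
      map_add' := fun v w => by ext (i | i) <;> simp; ring
      map_smul' := fun c v => by ext (i | i) <;> simp [mul_add] }
  have hL : Function.Involutive L := fun v => by
    ext (i | i) <;> simp [L]
    linear_combination v (.inr i.rev) * h2
  let x : (plusForm F d).Isom := ⟨LinearEquiv.ofInvolutive L hL, (quad_mem_Isom _).2 fun v => by
    change ∑ i, (v (.inl i) + v (.inr i.rev)) * v (.inr i) = ∑ i, v (.inl i) * v (.inr i)
    simp only [add_mul, Finset.sum_add_distrib, add_eq_left]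
    exact Finset.sum_ninvolution Fin.rev (fun i => by
      rw [Fin.rev_rev]; linear_combination v (.inr i.rev) * v (.inr i) * h2)
      (fun i _ e => by have := congrArg Fin.val e; simp at this; omega)
      (fun _ => Finset.mem_univ _) Fin.rev_rev⟩
  refine key (he'.isomEquiv x) (by
    rw [← map_pow, show x ^ 2 = 1 from Form.isom_ext fun v => hL v, map_one]) fun v hv => ?_
  obtain ⟨v, rfl⟩ := e.surjective v
  have h4 : x.1 v = v := e.injective (by simpa using hv)
  refine (he'.Q v).trans ((TS_U0 F d).1 v (mem_U0.2 fun i => ?_))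
  simpa using add_eq_left.1 (congrFun h4 (.inl i.rev))

omit he hf in
theorem s5983' {m : ℕ} {f : QF F, Fin (m + 1) ⊕ Fin (m + 1)} (hf : f.ND)
    (hB : ∀ u v, f.B u v = sympForm (m + 1) F u v) (hg : Nat.card F ≠ 2 ∨ m + 1 ≠ 2) {r : ℕ}
    [hr : Fact r.Prime] (hΩ : r ∣ (quadSimilarityGroup f.Q).relIndex (spGL (m + 1) F)) :
    (∀ x ∈ spGL (m + 1) F, (∃ z : F, (x ^ r).1 = z • (1 : Matrix _ _ F)) →
      (∀ z : F, x.1 ≠ z • (1 : Matrix _ _ F)) →
      ∃ g ∈ spGL (m + 1) F, g⁻¹ * x * g ∈ quadSimilarityGroup f.Q) ↔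
    r = 2 ∧ (f.HasTS (m + 1) ∨ Odd (m + 1)) := by
  have hs : ∀ x : GL (Fin (m + 1) ⊕ Fin (m + 1)) F, x ∈ spGL (m + 1) F ↔
      ∀ u v, f.B (x.1 *ᵥ u) (x.1 *ᵥ v) = f.B u v := fun x => by simp only [hB]; rfl
  obtain ⟨v₀, h0⟩ := exists_Q_ne hf
  obtain ⟨u₀, h0⟩ := hf.exists_eq (x := v₀) (by rintro rfl; exact h0 f.Q_zero) 1
  have hi : quadSimilarityGroup f.Q ⊓ spGL (m + 1) F = isometryGroup F f.Q := by
    refine le_antisymm (fun x ⟨⟨c, hc⟩, hx⟩ => mem_isometryGroup.2 fun v => ?_) fun x hx =>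
      ⟨⟨1, fun v => by simpa using mem_isometryGroup.1 hx v⟩, (hs x).2 (isometryGroup_eq f ▸ hx).1⟩
    have := (hs x).1 hx v₀ u₀
    rw [quad_B_eq, ← mulVec_add, hc, hc, hc, ← mul_sub, ← mul_sub, ← quad_B_eq, h0, mul_one] at this
    rw [hc, this, one_mul]
  have sc1 : ∀ x ∈ spGL (m + 1) F, ∀ z : F, x.1 = z • (1 : Matrix _ _ F) → x = 1 := fun x hx z e => by
    have := (hs x).1 hx v₀ u₀
    rw [e, smul_mulVec, smul_mulVec, one_mulVec, one_mulVec, map_smul, quad_symm, map_smul,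
      quad_symm, h0, smul_eq_mul, smul_eq_mul, mul_one] at this
    exact Units.ext (by rw [e, sq_one h2 this, one_smul]; rfl)
  have hc : Nat.card f.Isom * (quadSimilarityGroup f.Q).relIndex (spGL (m + 1) F) =
      Nat.card F ^ ((m + 1) ^ 2) * ((∏ i ∈ Finset.range m, (Nat.card F ^ (2 * (i + 1)) - 1)) *
        ((Nat.card F ^ (m + 1) - 1) * (Nat.card F ^ (m + 1) + 1))) := by
    rw [← Nat.card_congr (isometryEquiv f).toEquiv, ← hi, relIndex, ← inf_subgroupOf_right,
      ← Nat.card_congr (subgroupOfEquivOfLe inf_le_right).toEquiv, card_mul_index, spGL_eq,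
      Nat.card_congr (Form.matEquiv _).toEquiv,
      alt_card_Isom (m + 1) _ _ (spForm_ND _ F) (by simp; ring), Finset.prod_range_succ,
      pow_two_mul_sub_one _ _ Nat.card_pos]
  have hP : 0 < Nat.card F ^ ((m + 1) * m) *
      ∏ i ∈ Finset.range m, (Nat.card F ^ (2 * (i + 1)) - 1) := mul_pos (pow_pos Nat.card_pos _)
    (Finset.prod_pos fun i _ => Nat.sub_pos_of_lt (Nat.one_lt_pow (by omega) Finite.one_lt_card))
  have h1 : 0 < Nat.card F ^ (m + 1) - 1 :=
    Nat.sub_pos_of_lt (Nat.one_lt_pow (by omega) Finite.one_lt_card)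
  obtain ⟨k, hk⟩ := hΩ
  have hd : ∀ a b : ℕ, r ≠ 2 → 0 < a → Nat.card f.Isom = 2 * Nat.card F ^ ((m + 1) * m) * a *
      ∏ i ∈ Finset.range m, (Nat.card F ^ (2 * (i + 1)) - 1) →
      a * b = (Nat.card F ^ (m + 1) - 1) * (Nat.card F ^ (m + 1) + 1) → r ∣ b :=
    fun a b e ha h3 h4 => ((Nat.Prime.dvd_mul hr.out).1 ⟨2 * k, Nat.eq_of_mul_eq_mul_left
      (mul_pos hP ha) (by
        rw [h3, hk, ← h4] at hc; rw [← show _ = _ * (Nat.card F ^ (m + 1) * b) from
          hc.trans (by ring)]; ring)⟩).resolve_left fun e' =>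
      not_dvd_card h2 e (Nat.card_eq_fintype_card (α := F) ▸ hr.out.dvd_of_dvd_pow e')
  refine Iff.trans ⟨fun H x hx h3 h4 => ?_, fun H x hx ⟨z, hz⟩ h4 => ?_⟩
    (s5983 h2 hf (card_pm _) (by omega) hg
      (fun e ht => Nat.card_eq_fintype_card (α := F) ▸
        hd _ _ e h1 (plus_card_Isom m _ f hf (by simp; ring) ht) rfl)
      (fun e ht => Nat.card_eq_fintype_card (α := F) ▸
        hd _ _ e (Nat.succ_pos _) (minus_card_Isom m _ f hf (by simp; ring) ht) (mul_comm _ _)))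
  · obtain ⟨x, rfl⟩ := glEquiv.surjective x
    have hx' := (hs x).2 hx
    obtain ⟨g, hg, h5⟩ := H x hx' ⟨1, by
      rw [← map_pow, map_eq_one_iff _ glEquiv.injective] at h3; rw [h3]; simp⟩
      fun z e => h4 (by rw [sc1 x hx' z e, map_one])
    have h6 := mem_isometryGroup.1 (hi.le (mem_inf.2 ⟨h5, mul_mem (mul_mem (inv_mem hg) hx') hg⟩))
    have h7 : (qpb f (glEquiv g⁻¹) ((hs _).1 (inv_mem hg))).IsIso f (glEquiv g⁻¹) :=
      quad_isIso_of_Q fun _ => rfl
    refine ⟨qpb f (glEquiv g⁻¹) ((hs _).1 (inv_mem hg)), rfl, ⟨h7.hasTS, h7.symm.hasTS⟩,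
      (quad_mem_Isom _).2 fun v => ?_⟩
    refine Eq.trans ?_ (h6 ((g⁻¹).1 *ᵥ v))
    rw [mulVec_mulVec, ← Units.val_mul, mul_inv_cancel_right, Units.val_mul, ← mulVec_mulVec]; rfl
  obtain ⟨g, h5, h6, h7⟩ := H (glEquiv x) ((hs x).1 hx)
    (by rw [← map_pow, sc1 _ (pow_mem hx r) z hz, map_one])
    fun e => h4 1 (by rw [glEquiv.map_eq_one_iff.1 e]; simp)
  obtain ⟨e, he⟩ := even_exists_isIso hf (f' := g) (fun v hv => hf v (h5 ▸ hv)) (finrank_plus F _)
    (finrank_plus F _) h6.symm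
  refine ⟨glEquiv.symm e, (hs _).2 fun u v => by simpa [h5] using he.B u v, 1, fun v => ?_⟩
  rw [← map_inv, Units.val_mul, Units.val_mul, ← mulVec_mulVec, ← mulVec_mulVec,
    glEquiv_symm_mulVec, glEquiv_symm_mulVec, Units.val_one, one_mul, ← he.Q v, ← h7.2]
  exact he.symm.Q _

end H4.Au
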