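import Cfsg.Agent.H4.ElC
import Cfsg.Agent.H4.WaA

/-! Elements of odd prime order of symplectic groups fixing no pair of complementary totally
isotropic subspaces. -/

set_option autoImplicit false

namespace H4.Au
open Matrix Cfsg Module H4.As

section
variable {F : Type*} [Field F] {V : Type*} [AddCommGroup V] [Module F V]
  [FiniteDimensional F V] {f : Form (altKind F) V} (hf : f.ND) {U W W' : Submodule F V}
include hf

lemma pair_rank {d : ℕ} (hn : finrank F V = 2 * d) (hU : f.TS U) (hW : f.TS W) (c : IsCompl U W) :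
    finrank F U = d := by
  have h1 := Submodule.finrank_mono hU.le_perp
  have h2 := Submodule.finrank_mono hW.le_perp
  have h3 := hf.finrank_perp U
  have h4 := hf.finrank_perp W
  have h5 := Submodule.finrank_add_eq_of_isCompl c
  omega

lemma card_compl (hU : f.TS U) (hW : f.TS W) (c : IsCompl U W) :
    Nat.card {W' // IsCompl U W' ∧ f.TS W'} = Nat.card (f.fixSub U) := by
  have hc : ∀ g : f.fixSub U, IsCompl U (W.map (g.1.1 : V →ₗ[F] V)) := fun g => by
    have := (Submodule.orderIsoMapComap g.1.1).isCompl c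
    rwa [show Submodule.orderIsoMapComap g.1.1 U = U from (f.mem_stabSub_iff_map).1
      (Form.mem_stabSub_of_le _ fun v hv => (g.2 v hv).symm ▸ hv)] at this
  refine (Nat.card_eq_of_bijective (fun g : f.fixSub U => (⟨_, hc g, hW.map g.1.2⟩ :
    {W' // IsCompl U W' ∧ f.TS W'})) ⟨fun a b e => ?_, ?_⟩).symm
  · refine Subtype.ext (Subtype.ext (Form.ext_of_isCompl c
      (fun u hu => (a.2 u hu).trans (b.2 u hu).symm) fun w hw => sub_eq_zero.1 (hf _ fun v => ?_)))
    obtain ⟨u, hu, y, hy, rfl⟩ := Submodule.mem_sup.1 ((hc a).sup_eq_top.ge (Submodule.mem_top (x := v)))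
    have h1 : ∀ g : f.fixSub U, f.B (g.1.1 w) u = f.B w u := fun g => by
      rw [← Form.isom_B g.1 w, g.2 u hu]
    have h2 : f.B (a.1.1 w - b.1.1 w) y = 0 := (hW.map a.1.2).2 _
      (sub_mem ⟨w, hw, rfl⟩ ((congrArg Subtype.val e).ge ⟨w, hw, rfl⟩)) y hy
    rw [map_add, h2, map_sub, LinearMap.sub_apply, h1, h1, sub_self, add_zero]
  rintro ⟨W', c', hW'⟩
  let L : V →ₗ[F] V := U.projection W c + W'.projection U c'.symm
  have h1 : ∀ u ∈ U, L u = u := fun u hu => by
    simp only [L, LinearMap.add_apply, Submodule.projection_apply_of_mem_left c hu,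
      Submodule.projection_apply_of_mem_right c'.symm hu, add_zero]
  have h2 : ∀ w ∈ W, L w ∈ W' ∧ w - L w ∈ U := fun w hw => by
    simp only [L, LinearMap.add_apply, Submodule.projection_apply_of_mem_right c hw, zero_add]
    exact ⟨Submodule.projection_apply_mem _ w, (Submodule.projection_apply_eq_zero_iff c'.symm).1 (by
      rw [map_sub, Submodule.projection_apply_of_mem_left c'.symm
        (Submodule.projection_apply_mem _ w), sub_self])⟩
  have h3 : ∀ x y, f.B (L x) (L y) = f.B x y := fun x y => by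
    obtain ⟨a, ha, b, hb, rfl⟩ := Submodule.mem_sup.1 (c.sup_eq_top.ge (Submodule.mem_top (x := x)))
    obtain ⟨a', ha', b', hb', rfl⟩ := Submodule.mem_sup.1 (c.sup_eq_top.ge (Submodule.mem_top (x := y)))
    have e1 := hU.2 _ ha _ (h2 _ hb').2
    have e2 := hU.2 _ (h2 _ hb).2 _ ha'
    simp only [map_add, map_sub, LinearMap.add_apply, LinearMap.sub_apply, h1 _ ha, h1 _ ha',
      hW.2 _ hb _ hb', hW'.2 _ (h2 _ hb).1 _ (h2 _ hb').1] at e1 e2 ⊢
    linear_combination - e1 - e2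
  refine ⟨⟨⟨LinearEquiv.ofInjectiveEndo L ((injective_iff_map_eq_zero L).2 fun x hx => hf x fun y => by
    rw [← h3, hx]; simp), (alt_mem_Isom _).2 h3⟩, h1⟩, Subtype.ext (Submodule.eq_of_le_of_finrank_eq
      (by rintro _ ⟨w, hw, rfl⟩; exact (h2 w hw).1) ?_)⟩
  have := (Submodule.finrank_add_eq_of_isCompl c).trans (Submodule.finrank_add_eq_of_isCompl c').symm
  exact (LinearEquiv.finrank_map_eq _ _).trans (add_left_cancel this)

variable [Finite F]

lemma card_pairs {d : ℕ} (hn : finrank F V = 2 * d) (hU : f.TS U) (hW : f.TS W) (c : IsCompl U W) :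
    Nat.card {P : Submodule F V × Submodule F V // IsCompl P.1 P.2 ∧ f.TS P.1 ∧ f.TS P.2} *
      ∏ i : Fin d, (Nat.card F ^ d - Nat.card F ^ (i : ℕ)) = Nat.card f.Isom := by
  haveI : Finite V := Module.finite_of_finite F
  have h1 := pair_rank hf hn hU hW c
  haveI := Fintype.ofFinite {X : Submodule F V // finrank F X = finrank F U ∧ f.TS X}
  rw [card_TS hf hU, card_stab_TS hf hU h1, ← Nat.card_eq_of_bijective
    (fun p : Σ X : {X : Submodule F V // finrank F X = finrank F U ∧ f.TS X},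
      {Y // IsCompl X.1 Y ∧ f.TS Y} => ⟨(p.1.1, p.2.1), p.2.2.1, p.1.2.2, p.2.2.2⟩) ⟨by
        rintro ⟨⟨X, _⟩, Y, _⟩ ⟨⟨X', _⟩, Y', _⟩ e
        obtain ⟨rfl, rfl⟩ := Prod.ext_iff.1 (congrArg Subtype.val e)
        rfl, fun ⟨P, a, b, c⟩ => ⟨⟨⟨P.1, (pair_rank hf hn b c a).trans h1.symm, b⟩, P.2, a, c⟩, rfl⟩⟩,
    Nat.card_sigma, Finset.sum_congr rfl (g := fun _ => Nat.card (f.fixSub U)) fun X _ => ?_,
    Finset.sum_const, Finset.card_univ, ← Nat.card_eq_fintype_card, smul_eq_mul]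
  · ring
  obtain ⟨g, hg, e⟩ := hU.exists_map_eq hf X.2.2 X.2.1.symm
  rw [card_compl hf X.2.2 (hW.map hg) (e ▸ (Submodule.orderIsoMapComap g).isCompl c),
    alt_fix hf (d := 0) hU h1 hn, alt_fix hf (d := 0) X.2.2 (X.2.1.trans h1) hn]

lemma no_pair {i k r : ℕ} [Fact r.Prime] (hn : finrank F V = 2 * (i + k)) {x : f.Isom} (hx : x ^ r = 1)
    {j : (Fin k ⊕ Fin k → F) →ₗ[F] V} (hj : Function.Injective j)
    (hB : ∀ a b, f.B (j a) (j b) = (spForm k F).B a b) (hfix : ∀ v, x.1 v = v ↔ ∃ a, j a = v)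
    (hU : f.TS U) (hW : f.TS W) (c : IsCompl U W) (h1 : ∀ u ∈ U, x.1 u ∈ U)
    (h2 : ∀ u ∈ W, x.1 u ∈ W) : Nat.card F ^ (i + k) ≡ Nat.card F ^ k [MOD r] := by
  classical
  haveI : Finite V := Module.finite_of_finite F
  have ts : ∀ U : Submodule F V, f.TS U → (spForm k F).TS (U.comap j) := fun U hU =>
    ⟨fun _ _ => rfl, fun a ha b hb => (hB a b).symm.trans (hU.2 _ ha _ hb)⟩
  have h3 := pair_rank (spForm_ND k F) (finrank_plus F k) (ts U hU) (ts W hW)
    ⟨Submodule.disjoint_def.2 fun a ha hb => hj ((Submodule.disjoint_def.1 c.1 _ ha hb).trans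
      j.map_zero.symm), codisjoint_iff.2 (eq_top_iff.2 fun a _ => by
      obtain ⟨u, hu, w, hw, e⟩ := Submodule.mem_sup.1 (c.sup_eq_top.ge (Submodule.mem_top (x := j a)))
      have e1 := (hfix _).2 ⟨a, rfl⟩
      rw [← e, map_add] at e1
      have e2 : x.1 u - u = w - x.1 w := by linear_combination (norm := module) e1
      obtain ⟨b, rfl⟩ := (hfix u).1 (sub_eq_zero.1 (Submodule.disjoint_def.1 c.1 _
        (sub_mem (h1 u hu) hu) (e2 ▸ sub_mem hw (h2 w hw))))
      exact Submodule.mem_sup.2 ⟨b, hu, a - b, show j (a - b) ∈ W by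
        rwa [map_sub, ← e, add_sub_cancel_left], by simp⟩)⟩
  let φ : Function.End U := fun v => ⟨x.1 v, h1 _ v.2⟩
  have e : ∀ i v, ((φ ^ i) v : V) = (x ^ i).1 v := fun i v => by
    induction i with
    | zero => rfl
    | succ i ih => rw [pow_succ', pow_succ', Form.isom_mul_apply, ← ih]; rfl
  haveI := Fintype.ofFinite U
  have := Equiv.Perm.card_fixedPoints_modEq (f := φ) (p := r) (n := 1)
    (funext fun v => Subtype.ext (by rw [pow_one, e, hx]; rfl))
  rwa [← Nat.card_eq_fintype_card, ← Nat.card_eq_fintype_card, card_space (F := F),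
    pair_rank hf hn hU hW c, ← Nat.card_eq_of_bijective (fun a : U.comap j =>
      (⟨⟨j a, a.2⟩, Subtype.ext ((hfix _).2 ⟨a, rfl⟩)⟩ : φ.fixedPoints))
      ⟨fun a b e => Subtype.ext (hj (congrArg (·.1.1) e)), fun ⟨⟨v, hv⟩, h⟩ => by
        obtain ⟨a, rfl⟩ := (hfix v).1 (congrArg Subtype.val h)
        exact ⟨⟨a, hv⟩, rfl⟩⟩, card_space (F := F) (U.comap j), h3] at this

end

variable {F : Type*} [Field F] [Fintype F] {r : ℕ} [hr : Fact r.Prime]

lemma exists_el {i k : ℕ} (hi : i ≠ 0) (h : r ∣ Fintype.card F ^ i + 1) :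
    ∃ x : (spForm (i + k) F).Isom, x ^ r = 1 ∧ ∃ j : (Fin k ⊕ Fin k → F) →ₗ[F] _,
      Function.Injective j ∧ (∀ a b, (spForm (i + k) F).B (j a) (j b) = (spForm k F).B a b) ∧
      ∀ v, x.1 v = v ↔ ∃ a, j a = v := by
  obtain ⟨K, _, _, _, h1, hK⟩ := exists_ext (F := F) (d := i * 2) (by omega)
  rw [pow_mul] at hK
  obtain ⟨z, z0, z1, hz⟩ := exists_root1 (r := r) (K := K) (by
    rw [hK, Nat.sq_sub_sq _ 1]; exact h.mul_right _)
  let σ := frobq hK
  obtain ⟨s, hs⟩ : ∃ s, s - σ s ≠ 0 := by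
    by_contra! H
    exact frobq_ne_id hK (RingHom.ext fun s => (sub_eq_zero.1 (H s)).symm)
  obtain ⟨τ, -, h4⟩ := exists_dual_eq (Z := ⊥) (x := s - σ s) hs (1 : F)
  have hσ : ∀ (c : F) (a : K), σ (c • a) = c • σ a := fun c a => by
    rw [Algebra.smul_def, map_mul, frobq_apply, ← map_pow, FiniteField.pow_card_pow,
      Algebra.smul_def]
  let g : Form (altKind F) (K × (Fin k ⊕ Fin k → F)) := altForm
    (LinearMap.mk₂ F (fun a b => τ (a.1 * σ b.1 - b.1 * σ a.1) + a.2 ⬝ᵥ (J (Fin k) F *ᵥ b.2))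
      (by intros; simp only [Prod.fst_add, Prod.snd_add, mul_add, add_mul, map_add, map_sub,
        add_dotProduct]; ring)
      (by intros; simp only [Prod.smul_fst, Prod.smul_snd, hσ, smul_mul_assoc, mul_smul_comm,
        ← smul_sub, map_smul, smul_dotProduct, smul_add])
      (by intros; simp only [Prod.fst_add, Prod.snd_add, mul_add, add_mul, map_add, map_sub,
        mulVec_add, dotProduct_add]; ring)
      (by intros; simp only [Prod.smul_fst, Prod.smul_snd, hσ, smul_mul_assoc, mul_smul_comm,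
        ← smul_sub, map_smul, mulVec_smul, dotProduct_smul, smul_add]))
    fun a => by
      change τ (_ - _) + sympForm k F a.2 a.2 = 0
      simp [sympForm_eq, mul_comm]
  have gB : ∀ a b, g.B a b = τ (a.1 * σ b.1 - b.1 * σ a.1) + (spForm k F).B a.2 b.2 :=
    fun a b => by rw [spForm_B]; rfl
  have hg : g.ND := fun a ha => by
    refine Prod.ext (by_contra fun e => ?_) (spForm_ND k F _ fun y => by simpa [gB] using ha (0, y))
    have e1 := ha (σ (s / a.1), 0)
    rw [gB, frobq_frobq, ← map_mul, mul_div_cancel₀ _ e, div_mul_cancel₀ _ e, h4, map_zero,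
      add_zero] at e1
    exact one_ne_zero e1
  have hz' : z * σ z = 1 := by
    obtain ⟨k, hk⟩ := h
    rw [frobq_apply, ← pow_succ', hk, pow_mul, hz, one_pow]
  let x : g.Isom := ⟨((LinearEquiv.smulOfNeZero K K z z0).restrictScalars F).prodCongr (.refl F _),
    (alt_mem_Isom _).2 fun a b => by
      rw [gB, gB]; congr 2
      change z * a.1 * σ (z * b.1) - z * b.1 * σ (z * a.1) = _
      rw [map_mul, map_mul]; linear_combination (a.1 * σ b.1 - b.1 * σ a.1) * hz'⟩
  have hx : ∀ i a, (x ^ i).1 a = (z ^ i * a.1, a.2) := fun i a => by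
    induction i with
    | zero => simp
    | succ i ih => rw [pow_succ', Form.isom_mul_apply, ih, pow_succ', mul_assoc]; rfl
  obtain ⟨e, he⟩ := alt_exists_isIso _ _ _ g _ hg (spForm_ND (i + k) F) (by simp [h1]; ring)
    (finrank_plus F _)
  refine ⟨he.isomEquiv x, by
    rw [← map_pow, show x ^ r = 1 from Form.isom_ext fun a => (hx r a).trans (by
      rw [hz, one_mul]; rfl), map_one], e.toLinearMap ∘ₗ LinearMap.inr F K _,
    e.injective.comp LinearMap.inr_injective, fun a b => (he.B _ _).trans (by simp [gB]), fun v => ?_⟩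
  obtain ⟨v, rfl⟩ := e.surjective v
  refine ⟨fun hv => ⟨v.2, congrArg e (Prod.ext (by_contra fun h0 => ?_) rfl)⟩, fun ⟨a, ha⟩ => ?_⟩
  · have h5 : x.1 v = v := e.injective (by simpa using hv)
    exact z1 (mul_right_cancel₀ (Ne.symm h0) ((congrArg Prod.fst h5).trans (one_mul _).symm))
  obtain rfl : (0, a) = v := e.injective ha
  have : x.1 (0, a) = (0, a) := Prod.ext (mul_zero z) rfl
  simpa using this

theorem s5963 {d : ℕ} (hd : d ≠ 0) (ho : Odd (Fintype.card F)) (h2 : r ≠ 2)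
    (hp : ¬ r ∣ Fintype.card F) (h : r ∣ Nat.card {P : Submodule F _ × Submodule F _ //
      IsCompl P.1 P.2 ∧ (spForm d F).TS P.1 ∧ (spForm d F).TS P.2} / 2) :
    ∃ x : (spForm d F).Isom, x ^ r = 1 ∧ (∀ z : F, ¬ ∀ v, x.1 v = z • v) ∧
      ∀ U W, IsCompl U W → (spForm d F).TS U → (spForm d F).TS W →
        ¬ (((∀ u ∈ U, x.1 u ∈ U) ∧ ∀ u ∈ W, x.1 u ∈ W) ∨
          ((∀ u ∈ U, x.1 u ∈ W) ∧ ∀ u ∈ W, x.1 u ∈ U)) := by
  have hU : (spForm d F).TS (U0 F d) := ⟨fun _ _ => rfl, fun a ha b hb => by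
    simp [spForm_B, sympForm_eq, mem_U0.1 ha, mem_U0.1 hb]⟩
  have hW : (spForm d F).TS (U1 F d) := ⟨fun _ _ => rfl, fun a ha b hb => by
    simp [spForm_B, sympForm_eq, mem_U1.1 ha, mem_U1.1 hb]⟩
  have c : IsCompl (U0 F d) (U1 F d) := (Submodule.isCompl_iff_disjoint _ _ (by
    rw [finrank_U0, finrank_U1, finrank_plus]; omega)).2 (disjoint_iff.2 (U0_inf_U1 F d))
  have h1 := card_pairs (spForm_ND d F) (finrank_plus F d) hU hW c
  generalize Nat.card {P : Submodule F _ × Submodule F _ //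
    IsCompl P.1 P.2 ∧ (spForm d F).TS P.1 ∧ (spForm d F).TS P.2} = N at h h1
  rw [alt_card_Isom d _ _ (spForm_ND d F) (finrank_plus F d), Nat.card_eq_fintype_card] at h1
  generalize hq : Fintype.card F = q at *
  have q1 : 1 < q := hq ▸ Fintype.one_lt_card
  rw [Fin.prod_univ_eq_prod_range (fun i => q ^ d - q ^ i), Finset.prod_congr rfl
    (g := fun i => q ^ i * (q ^ (d - 1 - i + 1) - 1)) fun i hi => by
      rw [Nat.mul_sub_one, ← pow_add]; have := Finset.mem_range.1 hi; congr 2; omega,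
    Finset.prod_mul_distrib, Finset.prod_range_reflect (fun i => q ^ (i + 1) - 1),
    Finset.prod_congr rfl fun i _ => pow_two_mul_sub_one q (i + 1) (by omega),
    Finset.prod_mul_distrib, ← mul_assoc, mul_comm (∏ i ∈ Finset.range d, (q ^ (i + 1) - 1)),
    ← mul_assoc, Finset.prod_pow_eq_pow_sum] at h1
  replace h1 := Nat.eq_of_mul_eq_mul_right (Finset.prod_pos fun i _ =>
    Nat.sub_pos_of_lt (Nat.one_lt_pow (by omega) q1)) h1
  have h3 : 2 ∣ N := ((Nat.Prime.dvd_mul Nat.prime_two).1 (((dvd_trans (by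
    simpa using ho.add_one.two_dvd) (Finset.dvd_prod_of_mem (fun i => q ^ (i + 1) + 1)
      (Finset.mem_range.2 (Nat.pos_of_ne_zero hd)))).mul_left _).trans h1.symm.dvd)).resolve_right
    fun e => Nat.not_even_iff_odd.2 ho (even_iff_two_dvd.2 (Nat.prime_two.dvd_of_dvd_pow e))
  obtain ⟨i, hi, h4⟩ := (hr.out.prime.dvd_finsetProd_iff _).1 (((Nat.Prime.dvd_mul hr.out).1
    (h1 ▸ (h.trans (Nat.div_dvd_of_dvd h3)).mul_right _)).resolve_left
    fun e => hp (hr.out.dvd_of_dvd_pow e))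
  obtain ⟨k, rfl⟩ := Nat.exists_eq_add_of_lt (Finset.mem_range.1 hi)
  revert hU hW c
  rw [Nat.add_right_comm]
  intro hU hW c
  subst hq
  obtain ⟨x, h5, j, h6, h7, h8⟩ := exists_el (k := k) (Nat.succ_ne_zero i) h4
  have key : ∀ U W, IsCompl U W → (spForm _ F).TS U → (spForm _ F).TS W →
      (∀ u ∈ U, x.1 u ∈ U) → ¬ ∀ u ∈ W, x.1 u ∈ W := fun U W c hU hW a b => by
    have := no_pair (spForm_ND _ F) (finrank_plus F _) h5 h6 h7 h8 hU hW c a b
    rw [Nat.card_eq_fintype_card, pow_add] at this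
    have e1 := Nat.ModEq.cancel_right_of_coprime ((Nat.Prime.coprime_iff_not_dvd hr.out).2
      fun e => hp (hr.out.dvd_of_dvd_pow e)) (this.trans (by rw [one_mul]))
    exact h2 ((Nat.prime_dvd_prime_iff_eq hr.out Nat.prime_two).1 ((Nat.modEq_zero_iff_dvd).1
      ((e1.symm.add_right 1).trans ((Nat.modEq_zero_iff_dvd).2 h4))))
  refine ⟨x, h5, fun z hz => key _ _ c hU hW (fun u hu => hz u ▸ Submodule.smul_mem _ z hu)
    fun u hu => hz u ▸ Submodule.smul_mem _ z hu, fun U W c hU hW H => ?_⟩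
  rcases H with ⟨a, b⟩ | ⟨a, b⟩
  · exact key U W c hU hW a b
  obtain ⟨m, hm⟩ := hr.out.odd_of_ne_two h2
  have e : x = (x * x) ^ (m + 1) := by
    rw [← sq, ← pow_mul, show 2 * (m + 1) = r + 1 by omega, pow_succ, h5, one_mul]
  have h9 : ∀ U : Submodule F _, (∀ u ∈ U, x.1 (x.1 u) ∈ U) → ∀ u ∈ U, x.1 u ∈ U := fun U hU => by
    have : ∀ n, ∀ u ∈ U, ((x * x) ^ n).1 u ∈ U := fun n => by
      induction n with
      | zero => exact fun u hu => hu
      | succ n ih => exact fun u hu => by rw [pow_succ']; exact hU _ (ih u hu)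
    exact e ▸ this (m + 1)
  exact key U W c hU hW (h9 U fun u hu => b _ (a u hu)) (h9 W fun u hu => a _ (b u hu))

end H4.Au
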