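import Cfsg.Agent.H4.ElC
import Cfsg.Agent.H4.TbB

/-! Elements of odd prime order of `SL_n` with no conjugate in a symplectic similarity group. -/

set_option autoImplicit false

namespace H4.Au
open Matrix Cfsg Cfsg.Geo Module H4.As

section
variable {F : Type*} [Field F] {V W : Type*} [AddCommGroup V] [Module F V] [AddCommGroup W]
  [Module F W] {r : ℕ}

/-- `X` is a similarity of no non-degenerate alternating form -/
def NS (r : ℕ) (X : Module.End F V) : Prop := X ^ r = 1 ∧ ∀ B : LinearMap.BilinForm F V, B.IsAlt →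
  (∀ u, (∀ v, B u v = 0) → u = 0) → ∀ c : F, c ^ r = 1 → ¬ ∀ u v, B (X u) (X v) = c * B u v

lemma NS.conj {X : Module.End F V} (h : NS r X) (e : V ≃ₗ[F] W) : NS r (e.conjAlgEquiv F X) :=
  ⟨by rw [← map_pow, h.1, map_one], fun B h1 h2 c hc H => h.2 (B.compl₁₂ e e) (fun v => h1 _)
    (fun u hu => e.map_eq_zero_iff.1 (h2 _ fun v => by simpa using hu (e.symm v))) c hc
    fun u v => by simpa using H (e u) (e v)⟩

lemma ns_unip {m : ℕ} [Fact r.Prime] [CharP F r] (h2 : r ≠ 2) :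
    ∃ X : Module.End F (Fin (m + 3) → F), NS r X ∧ LinearMap.det X = 1 := by
  let N : Module.End F (Fin (m + 3) → F) := (LinearMap.proj 1).smulRight (Pi.single 0 1) +
    (LinearMap.proj 2).smulRight (Pi.single 1 1)
  have hN : ∀ v, N v = v 1 • Pi.single 0 1 + v 2 • Pi.single 1 1 := fun v => rfl
  have n1 : (2 : Fin (m + 3)) ≠ 0 := by simp [Fin.ext_iff, Nat.mod_eq_of_lt]
  have n2 : (2 : Fin (m + 3)) ≠ 1 := by simp [Fin.ext_iff, Nat.mod_eq_of_lt]
  haveI : CharP (Module.End F (Fin (m + 3) → F)) r := charP_of_injective_algebraMap' F r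
  have h1 : (1 + N) ^ r = 1 := by
    rw [add_pow_char_of_commute _ (Commute.one_left N), one_pow, pow_eq_zero_of_le (m := 3)
      ((Fact.out : r.Prime).two_le.lt_of_ne' h2) (LinearMap.ext fun v => by
        simp [pow_three, hN, n1, n2]), add_zero]
  have h3 : ∀ c : F, c ^ r = 1 → c = 1 := fun c hc => frobenius_inj F r (by simpa [frobenius_def])
  refine ⟨1 + N, ⟨h1, fun B hA hB c hc H => ?_⟩, h3 _ (by rw [← map_pow, h1, map_one])⟩
  obtain rfl := h3 c hc
  have a1 := H (Pi.single 0 1) (Pi.single 2 1)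
  have a2 := H (Pi.single 1 1) (Pi.single 2 1)
  simp [hN, n1, n2, n2.symm, hA.self_eq_zero] at a1 a2
  refine one_ne_zero (α := F) (by
    simpa using congrFun (hB (Pi.single 0 1) fun v => ?_) 0)
  have a3 := H (v - v 1 • Pi.single 1 1 - v 2 • Pi.single 2 1) (Pi.single 1 1)
  simp [hN, n1, n2, n2.symm, hA.self_eq_zero, ← hA.neg_eq (Pi.single 0 1)] at a3
  grind

lemma ns_diag {m : ℕ} [hr : Fact r.Prime] (h2 : r ≠ 2) (hm : Even (m + 4)) (hg : ¬ (m + 4 = 6 ∧ r = 3))
    {ω : F} (h0 : ω ≠ 0) (h1 : ω ≠ 1) (hω : ω ^ r = 1) :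
    ∃ X : Module.End F (Fin (m + 4) → F), NS r X ∧ LinearMap.det X = 1 := by
  let d : Fin (m + 4) → F := fun i => if i.1 < 2 then ω else if i.1 = 2 then (ω ^ 2)⁻¹ else 1
  have ho : ∀ k, ω ^ k = 1 → r ∣ k := fun k hk => orderOf_eq_prime hω h1 ▸ orderOf_dvd_of_pow_eq_one hk
  have o2 : ω ^ 2 ≠ 1 := fun h => h2 ((Nat.prime_dvd_prime_iff_eq hr.out Nat.prime_two).1 (ho _ h))
  have o4 : ω ^ 4 ≠ 1 := fun h => h2 ((Nat.prime_dvd_prime_iff_eq hr.out Nat.prime_two).1
    (hr.out.dvd_of_dvd_pow (n := 2) (ho _ h)))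
  have o3 : m = 2 → ω ^ 3 ≠ 1 := fun e h =>
    hg ⟨by omega, (Nat.prime_dvd_prime_iff_eq hr.out Nat.prime_three).1 (ho _ h)⟩
  refine ⟨toLin' (diagonal d), ⟨?_, fun B hA hB c hc H => ?_⟩, ?_⟩
  · rw [← toLin'_pow, diagonal_pow, show d ^ r = fun _ => 1 from funext fun i => by
      simp only [d, Pi.pow_apply]; split_ifs <;> simp [hω, pow_right_comm ω 2]]
    simp; rfl
  swap
  · rw [LinearMap.det_toLin', det_diagonal, Fin.prod_univ_succ, Fin.prod_univ_succ, Fin.prod_univ_succ,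
      Finset.prod_eq_one fun i _ => by simp [d]]
    simp [d, Nat.mod_eq_of_lt]; field_simp
  obtain ⟨G, rfl⟩ := Matrix.toBilin'.surjective B
  have h3 : G.det ≠ 0 := fun h => by
    obtain ⟨v, h4, h5⟩ := exists_vecMul_eq_zero_iff.2 h
    exact h4 (hB v fun w => by rw [toBilin'_apply', dotProduct_mulVec, h5, zero_dotProduct])
  rw [det_apply] at h3
  obtain ⟨σ, -, hσ⟩ := Finset.exists_ne_zero_of_sum_ne_zero h3
  have h4 : ∀ i, d (σ i) * d i = c := fun i => by
    have := H (Pi.single (σ i) 1) (Pi.single i 1)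
    rw [toLin'_apply, toLin'_apply, diagonal_mulVec_single, diagonal_mulVec_single] at this
    simp only [mul_one, toBilin'_apply', mulVec_single,
      single_dotProduct, Pi.smul_apply, col_apply, MulOpposite.smul_eq_mul_unop,
      MulOpposite.unop_op, one_mul] at this
    exact mul_right_cancel₀ (Finset.prod_ne_zero_iff.1 (right_ne_zero_of_smul hσ) i
      (Finset.mem_univ _)) (by linear_combination this)
  have h5 : ∀ i j : Fin (m + 4), i.1 ≠ j.1 → (σ i).1 ≠ (σ j).1 := fun i j h e =>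
    h (congrArg Fin.val (σ.injective (Fin.ext e)))
  have h6 : ∀ i, ((σ i).1 < 2 ∧ ω * d i = c) ∨ ((σ i).1 = 2 ∧ d i = c * ω ^ 2) ∨
      (2 < (σ i).1 ∧ d i = c) := fun i => by
    have := h4 i
    simp only [d] at this ⊢
    by_cases a : (σ i).1 < 2
    · exact .inl ⟨a, by rwa [if_pos a] at this⟩
    by_cases b : (σ i).1 = 2
    · exact .inr (.inl ⟨b, by rw [if_neg a, if_pos b] at this; rw [← this]; field_simp⟩)
    · exact .inr (.inr ⟨by omega, by rwa [if_neg a, if_neg b, one_mul] at this⟩)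
  have b0 := h6 ⟨0, by omega⟩
  have b1 := h6 ⟨1, by omega⟩
  have b3 := h6 ⟨3, by omega⟩
  have c01 := h5 ⟨0, by omega⟩ ⟨1, by omega⟩ (by simp)
  have c03 := h5 ⟨0, by omega⟩ ⟨3, by omega⟩ (by simp)
  have c13 := h5 ⟨1, by omega⟩ ⟨3, by omega⟩ (by simp)
  obtain ⟨k, hk⟩ := hm
  have h7 : c ≠ 1 := by
    rintro rfl
    simp only [d, zero_lt_two, if_true] at b0
    rcases b0 with b | b | b
    exacts [o2 (by rw [sq, b.2]), h1 (mul_left_cancel₀ h0 (by linear_combination -b.2)), h1 b.2]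
  have h8 : ∀ i : Fin (m + 4), 2 < i.1 →
      ((σ i).1 < 2 ∧ ω = c) ∨ ((σ i).1 = 2 ∧ 1 = c * ω ^ 2) := fun i hi => by
    have := h6 i
    rw [show d i = 1 by simp only [d]; rw [if_neg (by omega), if_neg (by omega)], mul_one] at this
    exact this.imp_right fun h => h.resolve_right fun h => h7 h.2.symm
  replace b3 := h8 ⟨3, by omega⟩ (by simp)
  by_cases e : m = 0
  · have a0 := (σ ⟨0, by omega⟩).2
    have a1 := (σ ⟨1, by omega⟩).2
    simp only [d, zero_lt_two, one_lt_two, if_true] at b0 b1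
    generalize (σ ⟨0, by omega⟩).1 = s0 at *
    generalize (σ ⟨1, by omega⟩).1 = s1 at *
    generalize (σ ⟨3, by omega⟩).1 = s3 at *
    clear h4 h5 h6 h8 ho H hB hA hσ h3 hc hω hg h2 o3
    grind (splits := 30)
  have b4 := h8 ⟨4, by omega⟩ (by simp)
  have b5 := h8 ⟨5, by omega⟩ (by simp)
  have c34 := h5 ⟨3, by omega⟩ ⟨4, by omega⟩ (by simp)
  have c35 := h5 ⟨3, by omega⟩ ⟨5, by omega⟩ (by simp)
  have c45 := h5 ⟨4, by omega⟩ ⟨5, by omega⟩ (by simp)
  by_cases e' : m = 2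
  · have h9 : ω = c := by
      by_contra h
      simp only [h, and_false, false_or] at b3 b4
      omega
    have h10 : 1 = c * ω ^ 2 := by
      by_contra h
      simp only [h, and_false, or_false] at b3 b4 b5
      omega
    exact o3 e' (by rw [h10, ← h9]; ring)
  have b6 := h8 ⟨6, by omega⟩ (by simp)
  have c36 := h5 ⟨3, by omega⟩ ⟨6, by omega⟩ (by simp)
  have c46 := h5 ⟨4, by omega⟩ ⟨6, by omega⟩ (by simp)
  have c56 := h5 ⟨5, by omega⟩ ⟨6, by omega⟩ (by simp)
  omega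

end

variable {F : Type*} [Field F] [Fintype F] {r : ℕ} [hr : Fact r.Prime]

lemma ns_ext {i k : ℕ} (hi : i ≠ 0) (hk : Odd k) (h : r ∣ Fintype.card F ^ i - 1)
    (h1 : ¬ r ∣ Fintype.card F - 1) :
    ∃ X : Module.End F (Fin (i + k) → F), NS r X ∧ LinearMap.det X = 1 := by
  have h3 : ∀ c : F, c ^ r = 1 → c = 1 := fun c hc => by_contra fun e => h1
    (orderOf_eq_prime hc e ▸ orderOf_dvd_of_pow_eq_one (FiniteField.pow_card_sub_one_eq_one c
      (by rintro rfl; simp [hr.out.ne_zero] at hc)))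
  obtain ⟨K, _, _, _, h4, hK⟩ := exists_ext (F := F) hi
  obtain ⟨z, z0, z1, hz⟩ := exists_root1 (hK ▸ h)
  let X : Module.End F (K × (Fin k → F)) := (LinearMap.mul F K z).prodMap LinearMap.id
  have hx : ∀ i a, (X ^ i) a = (z ^ i * a.1, a.2) := fun i a => by
    induction i with
    | zero => simp
    | succ i ih => rw [pow_succ', Module.End.mul_apply, ih, pow_succ', mul_assoc]; rfl
  have hX : NS r X := ⟨LinearMap.ext fun a => by simp [hx, hz], fun B hA hB c hc H => by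
    obtain rfl := h3 c hc
    refine Nat.not_even_iff_odd.2 hk (alt_even_finrank _ _ (altForm (B.compl₁₂ (.inr F _ _) (.inr F _ _))
      fun v => hA _) (fun a ha => congrArg Prod.snd (hB (0, a) fun v => ?_)) (by simp))
    have e1 : B (z * 0, a) (z * (v.1 / (z - 1)), 0) = _ := H (0, a) (v.1 / (z - 1), 0)
    have e2 : B (0, a) (0, v.2) = 0 := ha v.2
    rw [mul_zero, one_mul, ← sub_eq_zero, ← map_sub] at e1
    rw [show v = ((z * (v.1 / (z - 1)), 0) - (v.1 / (z - 1), 0)) + (0, v.2) from Prod.ext (by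
      have := sub_ne_zero.2 z1; simp; field_simp) (by simp), map_add, e1, e2, add_zero]⟩
  have := hX.conj (LinearEquiv.ofFinrankEq (R := F) _ (Fin (i + k) → F) (by simp [h4]))
  exact ⟨_, this, h3 _ (by rw [← map_pow, this.1, map_one])⟩

lemma prod_split (f : ℕ → ℕ) (m : ℕ) : ∏ i ∈ Finset.range (2 * m), f i =
    (∏ i ∈ Finset.range m, f (2 * i)) * ∏ i ∈ Finset.range m, f (2 * i + 1) := by
  induction m with
  | zero => simp
  | succ m ih => simp only [mul_add, mul_one, Finset.prod_range_succ, ih]; ring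

theorem s5968 {p : ℕ} [Fact p.Prime] [CharP F p] {m : ℕ} (hm : 2 ≤ m) {f : (Fin (2 * m) → F) → _ → F}
    (hf : IsSymplecticForm f) (h2 : r ≠ 2) (hg : ¬ (2 * m = 6 ∧ r = 3))
    (hΩ : r ∣ ((similarityGroup f).comap (SpecialLinearGroup.toGL :
      SpecialLinearGroup (Fin (2 * m)) F →* _)).index) :
    ∃ X : Module.End F (Fin (2 * m) → F), NS r X ∧ LinearMap.det X = 1 := by
  by_cases h1 : r ∣ Fintype.card F - 1
  · obtain ⟨z, z0, z1, hz⟩ := exists_root1 h1
    obtain ⟨k, hk⟩ : ∃ k, 2 * m = k + 4 := ⟨2 * m - 4, by omega⟩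
    rw [hk] at hg ⊢
    exact ns_diag h2 (hk ▸ even_two_mul m) hg z0 z1 hz
  by_cases h3 : r = p
  · subst h3
    obtain ⟨k, hk⟩ : ∃ k, 2 * m = k + 3 := ⟨2 * m - 3, by omega⟩
    rw [hk]; exact ns_unip h2
  have h4 : (aForm hf).matGroup ≤ (SpecialLinearGroup.toGL :
      SpecialLinearGroup (Fin (2 * m)) F →* _).range := fun g hg => by
    rw [← Form.map_toGL_top, ← alt_E_eq_top (aForm_ND hf)] at hg
    exact ⟨⟨g, mem_SL.1 (Form.map_toGL_SI.le (Subgroup.map_mono Form.E_le_SI hg)).2⟩, Units.ext rfl⟩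
  rw [Subgroup.index_comap] at hΩ
  obtain ⟨k, hk⟩ := (hΩ.trans (Subgroup.relIndex_dvd_of_le_left _ (H := (aForm hf).matGroup)
    fun g hg => ⟨1, fun u v => (hg.1 u v).trans (one_mul _).symm⟩)).trans (Subgroup.relIndex_dvd_index_of_le h4)
  have h5 := (aForm hf).matGroup.card_mul_index
  rw [hk, Nat.card_congr (Form.matEquiv _).toEquiv, alt_card_Isom m _ _ (aForm_ND hf) (by simp),
    card_GL_field, Nat.card_eq_fintype_card] at h5
  generalize hq : Fintype.card F = q at *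
  have q1 : 1 < q := hq ▸ Fintype.one_lt_card
  rw [Fin.prod_univ_eq_prod_range (fun i => q ^ (2 * m) - q ^ i), Finset.prod_congr rfl
    (g := fun i => q ^ i * (q ^ (2 * m - 1 - i + 1) - 1)) (s₁ := Finset.range (2 * m)) fun i hi => by
      rw [Nat.mul_sub_one, ← pow_add]; have := Finset.mem_range.1 hi; congr 2; omega,
    Finset.prod_mul_distrib, Finset.prod_range_reflect (fun i => q ^ (i + 1) - 1),
    prod_split (fun i => q ^ (i + 1) - 1), Finset.prod_pow_eq_pow_sum, ← mul_assoc _ _ (∏ _ ∈ _, _),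
    mul_right_comm] at h5
  replace h5 := Nat.eq_of_mul_eq_mul_right (Finset.prod_pos fun i _ =>
    Nat.sub_pos_of_lt (Nat.one_lt_pow (by omega) q1)) h5
  subst hq
  obtain ⟨i, hi, h6⟩ := (hr.out.prime.dvd_finsetProd_iff _).1 (((Nat.Prime.dvd_mul hr.out).1
    (((dvd_mul_right r k).mul_left _).trans h5.dvd)).resolve_left fun e => by
      obtain ⟨n, h7, h8⟩ := FiniteField.card F p
      exact h3 ((Nat.prime_dvd_prime_iff_eq hr.out h7).1
        (hr.out.dvd_of_dvd_pow (h8 ▸ hr.out.dvd_of_dvd_pow e))))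
  obtain ⟨j, rfl⟩ := Nat.exists_eq_add_of_lt (Finset.mem_range.1 hi)
  rw [show 2 * (i + j + 1) = (2 * i + 1) + (2 * j + 1) by ring]
  exact ns_ext (by omega) (odd_two_mul_add_one j) h6 h1

end H4.Au
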