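import Cfsg.Agent.H4.TbB

/-! Unipotent elements stabilising a decomposition. -/

set_option autoImplicit false

namespace H4.Jd
open Module LinearMap Submodule

universe u
variable {F : Type u} [Field F]

lemma finrank_prod' {V W : Type*} [AddCommGroup V] [Module F V] [AddCommGroup W] [Module F W]
    [FiniteDimensional F V] [FiniteDimensional F W] (p : Submodule F V) (q : Submodule F W) :
    finrank F (p.prod q) = finrank F p + finrank F q := by
  rw [← finrank_prod, ← finrank_range_of_inj (f := p.subtype.prodMap q.subtype)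
    (p.injective_subtype.prodMap q.injective_subtype), range_prodMap, range_subtype, range_subtype]

lemma block (b : ℕ) : ∃ N : End F (Fin b → F), ∀ k, finrank F (range (N ^ k)) = b - k := by
  let N : End F (Fin b → F) :=
    { toFun := fun v i => if h : i.1 + 1 < b then v ⟨i + 1, h⟩ else 0
      map_add' := fun v w => by ext i; simp only [Pi.add_apply]; split_ifs <;> simp
      map_smul' := fun c v => by ext i; simp only [Pi.smul_apply]; split_ifs <;> simp }
  have h1 : ∀ k v i, (N ^ k) v i = if h : i.1 + k < b then v ⟨i + k, h⟩ else 0 := fun k => by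
    induction k with
    | zero => simp
    | succ k ih =>
      intro v i
      rw [pow_succ', End.mul_apply]
      change (if h : i.1 + 1 < b then (N ^ k) v ⟨i + 1, h⟩ else 0) = _
      by_cases h : i.1 + (k + 1) < b
      · rw [dif_pos h, dif_pos (by omega), ih, dif_pos (by simp; omega)]
        congr 2; simp; omega
      · rw [dif_neg h]; split_ifs
        · rw [ih, dif_neg (by simp; omega)]
        · rfl
  refine ⟨N, fun k => ?_⟩
  let e : Fin (b - k) → Fin b := fun i => ⟨i + k, by omega⟩
  have h2 := finrank_range_add_finrank_ker (N ^ k)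
  have h3 := finrank_range_add_finrank_ker (funLeft F F e)
  rw [range_eq_top.2 (funLeft_surjective_of_injective F F e fun i j h => Fin.ext (by
    simpa [e] using h)), finrank_top, finrank_fin_fun, show ker (funLeft F F e) = ker (N ^ k) from
      Submodule.ext fun v => ⟨fun h => funext fun i => by
        rw [h1]; split_ifs with h'
        exacts [congrFun h ⟨i, by omega⟩, rfl], fun h => funext fun i => by
          simpa [h1, show i.1 + k < b by omega] using congrFun h ⟨i, by omega⟩⟩] at h3
  omega

lemma jordan (μ : Multiset ℕ) : ∃ N : End F (Fin μ.sum → F),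
    ∀ k, finrank F (range (N ^ k)) = (μ.map (· - k)).sum := by
  induction μ using Multiset.induction_on with
  | empty => exact ⟨0, fun k => Nat.le_zero.1 ((finrank_le _).trans (finrank_fin_fun F).le)⟩
  | cons b μ ih =>
    obtain ⟨N, hN⟩ := ih
    obtain ⟨M, hM⟩ := block (F := F) b
    let e := LinearEquiv.ofFinrankEq (R := F) ((Fin b → F) × (Fin μ.sum → F))
      (Fin (b ::ₘ μ).sum → F) (by simp)
    refine ⟨e.conjAlgEquiv F (M.prodMap N), fun k => ?_⟩
    have : ∀ k, (M.prodMap N) ^ k = (M ^ k).prodMap (N ^ k) := fun k => by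
      induction k with
      | zero => simp
      | succ k ih => rw [pow_succ, ih, pow_succ, pow_succ]; rfl
    rw [← map_pow, this, LinearEquiv.conjAlgEquiv_apply, range_comp, LinearEquiv.finrank_map_eq,
      range_comp_of_range_eq_top _ e.symm.range, range_prodMap, finrank_prod', hM, hN]
    simp

variable {V : Type*} [AddCommGroup V] [Module F V] [FiniteDimensional F V] {N : End F V}

lemma convex {S : Submodule F V} (h : ∀ v ∈ S, N v ∈ S) (k : ℕ) :
    2 * finrank F (S.map (N ^ (k + 1))) ≤
      finrank F (S.map (N ^ k)) + finrank F (S.map (N ^ (k + 2))) := by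
  have h1 : ∀ k, finrank F (S.map (N ^ (k + 1))) + finrank F (ker N ⊓ S.map (N ^ k) :) =
      finrank F (S.map (N ^ k)) := fun k => by
    rw [← finrank_range_add_finrank_ker (N.domRestrict (S.map (N ^ k))), range_domRestrict,
      ← map_comp, ← End.mul_eq_comp, ← pow_succ', ker_domRestrict,
      ← finrank_map_subtype_eq _ (comap _ _), map_comap_subtype, inf_comm]
  have h2 : ker N ⊓ S.map (N ^ (k + 1)) ≤ ker N ⊓ S.map (N ^ k) := inf_le_inf_left _ (by
    rintro _ ⟨v, hv, rfl⟩; exact ⟨_, h v hv, by rw [pow_succ]; rfl⟩)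
  have := finrank_mono h2
  have := h1 k
  have : finrank F (S.map (N ^ (k + 2))) + _ = _ := h1 (k + 1)
  omega

lemma split {μ : Multiset ℕ} {p : ℕ} (hμ : ∀ b ∈ μ, b ≤ p)
    (hN : ∀ k, finrank F (range (N ^ k)) = (μ.map (· - k)).sum) {U W : Submodule F V}
    (c : IsCompl U W) (hU : ∀ v ∈ U, N v ∈ U) (hW : ∀ v ∈ W, N v ∈ W) :
    ∃ ν ≤ μ, ν.sum = finrank F U := by
  have inv : ∀ S : Submodule F V, (∀ v ∈ S, N v ∈ S) → ∀ k, S.map (N ^ k) ≤ S := fun S h k => by
    rintro _ ⟨v, hv, rfl⟩
    induction k with
    | zero => exact hv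
    | succ k ih => rw [pow_succ']; exact h _ ih
  have h1 : ∀ k, finrank F (U.map (N ^ k)) + finrank F (W.map (N ^ k)) = (μ.map (· - k)).sum :=
    fun k => by
      rw [← finrank_sup_add_finrank_inf_eq, ← Submodule.map_sup, c.sup_eq_top, Submodule.map_top, hN,
        (c.1.mono (inv U hU k) (inv W hW k)).eq_bot, finrank_bot, add_zero]
  have h2 : ∀ k, (μ.map (· - k)).sum + (μ.map (· - (k + 2))).sum =
      2 * (μ.map (· - (k + 1))).sum + μ.count (k + 1) := fun k => by
    clear hμ hN h1
    induction μ using Multiset.induction_on with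
    | empty => simp
    | cons b μ ih =>
      simp only [Multiset.map_cons, Multiset.sum_cons, Multiset.count_cons]
      split_ifs <;> omega
  have h3 : ∀ k, p ≤ k → finrank F (U.map (N ^ k)) = 0 := fun k hk => by
    have := h1 k
    rw [Multiset.sum_eq_zero fun x hx => by
      obtain ⟨b, hb, rfl⟩ := Multiset.mem_map.1 hx
      have := hμ b hb; omega] at this
    omega
  have h0 : finrank F (U.map (N ^ 0)) = finrank F U := by
    rw [pow_zero, End.one_eq_id, Submodule.map_id]
  have cU := convex hU
  have cW := convex hW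
  rw [← h0]
  set u : ℕ → ℕ := fun k => finrank F (U.map (N ^ k))
  have h4 : ∀ n, ∃ ν : Multiset ℕ, (∀ b, ν.count b ≤ if b ≤ n then μ.count b else 0) ∧
      ν.sum + (n + 1) * u n = u 0 + n * u (n + 1) := fun n => by
    induction n with
    | zero => exact ⟨0, by simp, by simp⟩
    | succ n ih =>
      obtain ⟨ν, a, b⟩ := ih
      obtain ⟨t, ht⟩ := Nat.exists_eq_add_of_le (cU n)
      refine ⟨ν + Multiset.replicate t (n + 1), fun x => ?_, ?_⟩
      · have := a x
        have := h1 n; have := h1 (n + 1); have := h1 (n + 2); have := h2 n; have := cW n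
        rw [Multiset.count_add, Multiset.count_replicate]
        split_ifs at * <;> subst_vars <;> omega
      · rw [Multiset.sum_add, Multiset.sum_replicate, smul_eq_mul]
        change u n + u (n + 2) = 2 * u (n + 1) + t at ht
        zify at ht b ⊢
        linear_combination b - (n + 1) * ht
  obtain ⟨ν, a, b⟩ := h4 p
  refine ⟨ν, Multiset.le_iff_count.2 fun x => (a x).trans (by split_ifs <;> omega), ?_⟩
  rw [show u p = 0 from h3 p le_rfl, show u (p + 1) = 0 from h3 _ p.le_succ] at b
  simpa using b

lemma moved {p : ℕ} [hp : Fact p.Prime] [CharP F p] (h : (1 + N) ^ p = 1) {t : ℕ}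
    {D : Fin t → Submodule F V} (hD : iSupIndep D) {σ : Equiv.Perm (Fin t)}
    (hσ : ∀ j, (D j).map (1 + N) = D (σ j)) {j : Fin t} (h0 : D j ≠ ⊥) (hj : σ j ≠ j) :
    finrank F (D j) ≤ finrank F (range (N ^ (p - 1))) := by
  have h1 : ∀ i, (D j).map ((1 + N) ^ i) = D (σ^[i] j) := fun i => by
    induction i with
    | zero => rw [pow_zero, End.one_eq_id, Submodule.map_id]; rfl
    | succ i ih => rw [pow_succ', End.mul_eq_comp, map_comp, ih, hσ, Function.iterate_succ_apply']
  have h2 : σ^[p] j = j := by_contra fun e => h0 (by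
    have := h1 p
    rw [h, End.one_eq_id, Submodule.map_id] at this
    exact disjoint_self.1 (Disjoint.mono_left this.le (hD.pairwiseDisjoint e)))
  have h3 := Function.minimalPeriod_eq_prime (f := σ) h2 hj
  have h4 : N ^ (p - 1) = ∑ i ∈ Finset.range p, (1 + N) ^ i := by
    have : (Polynomial.X : Polynomial F) ^ (p - 1) =
        ∑ i ∈ Finset.range p, (1 + Polynomial.X) ^ i := mul_right_cancel₀ Polynomial.X_ne_zero (by
      have := geom_sum_mul (1 + Polynomial.X : Polynomial F) p
      rw [add_sub_cancel_left, add_pow_char, one_pow, add_sub_cancel_left] at this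
      rw [this, ← pow_succ, Nat.sub_add_cancel hp.out.pos])
    simpa using congrArg (Polynomial.aeval N) this
  refine finrank_le_finrank_of_injective (f := (N ^ (p - 1)).rangeRestrict ∘ₗ (D j).subtype)
    ((injective_iff_map_eq_zero _).2 fun v hv => Subtype.ext (disjoint_def.1 (hD j) _ v.2 ?_))
  have h5 : (N ^ (p - 1)) v = 0 := congrArg Subtype.val hv
  rw [h4, ← Nat.sub_add_cancel hp.out.pos, Finset.sum_range_succ', LinearMap.add_apply, pow_zero,
    End.one_apply, ← neg_eq_iff_add_eq_zero, LinearMap.sum_apply] at h5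
  rw [← h5]
  refine neg_mem (sum_mem fun i hi => mem_iSup_of_mem (σ^[i + 1] j) (mem_iSup_of_mem (fun e => ?_)
    ((h1 _).le ⟨v, v.2, rfl⟩)))
  have := Nat.le_of_dvd i.succ_pos (h3 ▸ Function.IsPeriodicPt.minimalPeriod_dvd e)
  have := Finset.mem_range.1 hi
  omega

omit [FiniteDimensional F V] in
lemma exists_compl {t : ℕ} {D : Fin t → Submodule F V} (hD : iSupIndep D) (h1 : iSup D = ⊤)
    (h : ∀ j, ∀ v ∈ D j, N v ∈ D j) (i : Fin t) : ∃ W, IsCompl (D i) W ∧ ∀ v ∈ W, N v ∈ W := by
  refine ⟨_, ⟨hD i, codisjoint_iff.2 (by rw [← h1, iSup_split_single D i])⟩, fun v hv => ?_⟩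
  have : (⨆ j, ⨆ (_ : j ≠ i), D j) ≤ comap N (⨆ j, ⨆ (_ : j ≠ i), D j) :=
    iSup₂_le fun j hj w hw => mem_comap.2 (mem_iSup_of_mem j (mem_iSup_of_mem hj (h j w hw)))
  exact this hv

lemma sum_top {p : ℕ} (hp : 0 < p) {s : Multiset ℕ} (hs : ∀ b ∈ s, b ≤ p) :
    (s.map (· - (p - 1))).sum = s.count p := by
  induction s using Multiset.induction_on with
  | empty => simp
  | cons b s ih =>
    have := hs b (Multiset.mem_cons_self _ _)
    rw [Multiset.map_cons, Multiset.sum_cons, Multiset.count_cons,
      ih fun c hc => hs c (Multiset.mem_cons_of_mem hc)]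
    split_ifs <;> omega

end H4.Jd
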