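import Cfsg.Agent.H4.Disc

/-! The heart of the permutation module of a symmetric group over the field of two elements. -/

set_option autoImplicit false

namespace H4.Ht
open Module Form Matrix

local notation "F₂" => ZMod 2

variable {ι : Type} [Fintype ι] [DecidableEq ι] (z : ι)

/-- even vectors vanishing at `z` -/
def S : Submodule F₂ (ι → F₂) := LinearMap.ker ((LinearMap.proj z).prod (∑ i, LinearMap.proj i))

variable {z}

omit [DecidableEq ι] in
lemma mem_S {x : ι → F₂} : x ∈ S z ↔ x z = 0 ∧ ∑ i, x i = 0 := by simp [S]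

lemma pair_mem {i j : ι} (hi : i ≠ z) (hj : j ≠ z) : Pi.single i 1 + Pi.single j 1 ∈ S z :=
  mem_S.2 ⟨by simp [hi.symm, hj.symm], by simp [Finset.sum_add_distrib]; rfl⟩

lemma finrank_S [Nontrivial ι] : finrank F₂ (S z) + 2 = Fintype.card ι := by
  obtain ⟨i, hi⟩ := exists_ne z
  have := LinearMap.finrank_range_add_finrank_ker
    ((LinearMap.proj z).prod (∑ i, LinearMap.proj i) : (ι → F₂) →ₗ[F₂] F₂ × F₂)
  rw [LinearMap.range_eq_top.2 fun p => ⟨Pi.single z p.1 + Pi.single i (p.2 - p.1 : F₂), by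
    ext <;> simp [Finset.sum_add_distrib, hi.symm]⟩] at this
  rw [add_comm]
  exact Eq.trans (by simp; rfl) (this.trans (by simp))

variable (hι : (Fintype.card ι : F₂) = 0)

/-- the action of a permutation -/
def rho (σ : Equiv.Perm ι) : S z →ₗ[F₂] S z where
  toFun x := ⟨fun i => x.1 (σ⁻¹ i) - x.1 (σ⁻¹ z), mem_S.2 ⟨sub_self _, by
    simp [Finset.sum_sub_distrib, hι, Equiv.sum_comp σ.symm x.1, (mem_S.1 x.2).2]⟩⟩
  map_add' x y := by ext i; simp; ring
  map_smul' c x := by ext i; simp; ring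

omit [DecidableEq ι] in
lemma rho_app (σ : Equiv.Perm ι) (x : S z) (i : ι) :
    (rho hι σ x).1 i = x.1 (σ⁻¹ i) - x.1 (σ⁻¹ z) := rfl

variable (z) in
/-- the action as a homomorphism -/
def act : Equiv.Perm ι →* (S z ≃ₗ[F₂] S z) :=
  (LinearMap.GeneralLinearGroup.generalLinearEquiv F₂ _).toMonoidHom.comp (MonoidHom.toHomUnits
    { toFun := rho hι
      map_one' := by ext x i; simp [rho_app, (mem_S.1 x.2).1]
      map_mul' := fun σ τ => by ext x i; simp [rho_app] })

omit [DecidableEq ι] in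
lemma act_app (σ : Equiv.Perm ι) (x : S z) (i : ι) :
    (act z hι σ x).1 i = x.1 (σ⁻¹ i) - x.1 (σ⁻¹ z) := rfl

lemma act_inj (h5 : 5 ≤ Fintype.card ι) : Function.Injective (act z hι) := by
  refine (injective_iff_map_eq_one _).2 fun σ h => ?_
  have h1 : ∀ x : S z, ∀ i, x.1 (σ⁻¹ i) - x.1 (σ⁻¹ z) = x.1 i := fun x i => by
    rw [← act_app hι, h]; rfl
  have ex : ∀ s : Finset ι, s.card ≤ 4 → ∃ i, i ∉ s := fun s hs => by
    by_contra h
    push Not at h
    rw [Finset.eq_univ_iff_forall.2 h, Finset.card_univ] at hs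
    omega
  have hz : σ⁻¹ z = z := by_contra fun hz => by
    obtain ⟨j, hj⟩ := ex {z, σ⁻¹ z} (Finset.card_le_two.trans (by omega))
    obtain ⟨k, hk⟩ := ex {z, σ⁻¹ z, j, σ j} Finset.card_le_four
    simp only [Finset.mem_insert, Finset.mem_singleton, not_or] at hj hk
    have := h1 ⟨_, pair_mem hz hj.1⟩ k
    have h2 : σ⁻¹ k ≠ j := fun e => hk.2.2.2 (by rw [← e]; simp)
    have h3 : σ⁻¹ k ≠ σ⁻¹ z := σ⁻¹.injective.ne hk.1
    simp only [Pi.add_apply, Pi.single_eq_of_ne h2, Pi.single_eq_of_ne h3, Pi.single_eq_same,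
      Pi.single_eq_of_ne (Ne.symm hj.2), Pi.single_eq_of_ne hk.2.1,
      Pi.single_eq_of_ne hk.2.2.1] at this
    simp at this
  rw [← inv_eq_one]
  ext i
  by_contra hi
  have h3 : i ≠ z := by rintro rfl; exact hi hz
  obtain ⟨j, hj⟩ := ex {z, i, σ⁻¹ i} (Finset.card_le_three.trans (by omega))
  simp only [Finset.mem_insert, Finset.mem_singleton, not_or] at hj
  have := h1 ⟨_, pair_mem h3 hj.1⟩ i
  rw [hz] at this
  simp only [Equiv.Perm.coe_one, id] at hi
  simp only [Pi.add_apply, Pi.single_eq_of_ne hi, Pi.single_eq_of_ne (Ne.symm hj.2.2),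
    Pi.single_eq_of_ne h3.symm, Pi.single_eq_of_ne (Ne.symm hj.1), Pi.single_eq_same,
    Pi.single_eq_of_ne (Ne.symm hj.2.1)] at this
  simp at this

variable (z) in
/-- the dot product -/
def dot : LinearMap.BilinForm F₂ (S z) := (Matrix.toBilin' 1).compl₁₂ (S z).subtype (S z).subtype

lemma dot_app (x y : S z) : dot z x y = ∑ i, x.1 i * y.1 i := by
  simp [dot, Matrix.toBilin'_apply', dotProduct]

lemma dot_act (σ : Equiv.Perm ι) (x y : S z) : dot z (act z hι σ x) (act z hι σ y) = dot z x y := by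
  simp only [dot_app, act_app, sub_mul, mul_sub, Finset.sum_sub_distrib, ← Finset.sum_mul,
    ← Finset.mul_sum, Equiv.sum_comp σ⁻¹ x.1, Equiv.sum_comp σ⁻¹ y.1, (mem_S.1 x.2).2,
    (mem_S.1 y.2).2, Equiv.sum_comp σ⁻¹ fun i => x.1 i * y.1 i]
  simp [hι]

include hι in
lemma dot_nd (x : S z) (h : ∀ y, dot z x y = 0) : x = 0 := by
  have h1 : ∀ i j, i ≠ z → j ≠ z → x.1 i = x.1 j := fun i j hi hj => by
    have := h ⟨_, pair_mem hi hj⟩
    simp only [dot_app, Pi.add_apply, mul_add, Finset.sum_add_distrib, Pi.single_apply, mul_ite,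
      mul_one, mul_zero, Finset.sum_ite_eq', Finset.mem_univ, if_true] at this
    exact (eq_neg_of_add_eq_zero_left this).trans (CharTwo.neg_eq _)
  ext i
  by_cases hi : i = z
  · exact hi ▸ (mem_S.1 x.2).1
  have h2 : ∑ j, x.1 j = ∑ j, (x.1 i - if j = z then x.1 i else 0) :=
    Finset.sum_congr rfl fun j _ => by
      split_ifs with hj
      · rw [hj, (mem_S.1 x.2).1, sub_self]
      · rw [h1 j i hj hi, sub_zero]
  simpa [(mem_S.1 x.2).2, Finset.sum_sub_distrib, hι] using h2.symm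

lemma dot_alt : (dot z).IsAlt := fun x => by
  rw [dot_app, ← (mem_S.1 x.2).2]
  exact Finset.sum_congr rfl fun i _ => by generalize x.1 i = a; revert a; decide

theorem sp_emb {m : ℕ} (h : Fintype.card ι = 2 * m + 2) (hm : 2 ≤ m) :
    ∃ φ : Equiv.Perm ι →* symplecticGroup (Fin m) F₂, Function.Injective φ := by
  haveI : Nontrivial ι := Fintype.one_lt_card_iff_nontrivial.1 (by omega)
  obtain ⟨z⟩ : Nonempty ι := inferInstance
  have hι : (Fintype.card ι : F₂) = 0 := by
    rw [h]; push_cast; rw [show (2 : ZMod 2) = 0 from rfl]; simp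
  have := finrank_S (z := z)
  obtain ⟨e, he⟩ := alt_exists_isIso (2 * m) _ _ (altForm _ (dot_alt (z := z))) (spForm m F₂)
    (dot_nd hι) (spForm_ND m F₂) (by omega) (by simp [two_mul])
  exact ⟨(spEquiv m F₂).symm.toMonoidHom.comp (he.isomEquiv.toMonoidHom.comp
    ((act z hι).codRestrict _ fun σ => (alt_mem_Isom _).2 (dot_act hι σ))),
    (spEquiv m F₂).symm.injective.comp (he.isomEquiv.injective.comp
      ((MonoidHom.injective_codRestrict _ _ _).2 (act_inj hι (by omega))))⟩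

/-- the weight modulo four -/
def W (x : ι → F₂) : ZMod 4 := ∑ i, ((x i).val : ZMod 4)

/-- doubling -/
def dbl : F₂ →+ ZMod 4 := AddMonoidHom.mk' (fun a => 2 * (a.val : ZMod 4)) (by decide)

/-- halving -/
def hlf (w : ZMod 4) : F₂ := if w = 2 then 1 else 0

omit [DecidableEq ι] in
lemma W_add (x y : ι → F₂) : W (x + y) = W x + W y + dbl (∑ i, x i * y i) := by
  simp only [W, map_sum, ← Finset.sum_add_distrib, Pi.add_apply]
  exact Finset.sum_congr rfl fun i _ => by
    generalize x i = a; generalize y i = b; revert a b; decide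

omit [DecidableEq ι] in
lemma cast_W (x : ι → F₂) : ZMod.castHom (show 2 ∣ 4 by decide) F₂ (W x) = ∑ i, x i := by
  simp only [W, map_sum]
  exact Finset.sum_congr rfl fun i _ => by generalize x i = a; revert a; decide

omit [DecidableEq ι] in
lemma dbl_hlf (x : S z) : dbl (hlf (W x.1)) = W x.1 := by
  have := (cast_W x.1).trans (mem_S.1 x.2).2
  generalize W x.1 = w at *
  revert w; decide

variable (z) in
/-- the quadratic form -/
def qf : Form (quadKind F₂) (S z) :=
  mkQuad (fun x => hlf (W x.1)) (dot z) (fun x y => (show Function.Injective dbl by decide) (by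
    rw [map_add, map_add, dbl_hlf, dbl_hlf, dbl_hlf, dot_app]; exact W_add _ _)) fun c x => by
      rcases (show ∀ c : F₂, c = 0 ∨ c = 1 by decide) c with rfl | rfl
      · simp [W, hlf]; decide
      · simp

omit [DecidableEq ι] in
lemma W_act (h4 : (Fintype.card ι : ZMod 4) = 0) (σ : Equiv.Perm ι) (x : S z) :
    W (act z hι σ x).1 = W x.1 := by
  have : (act z hι σ x).1 = x.1 ∘ ⇑σ⁻¹ + fun _ => x.1 (σ⁻¹ z) := by
    ext i; rw [act_app, CharTwo.sub_eq_add]; rfl
  rw [this, W_add]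
  simp [W, h4, ← Finset.sum_mul, Equiv.sum_comp σ.symm x.1, (mem_S.1 x.2).2,
    Equiv.sum_comp σ.symm fun i => ((x.1 i).cast : ZMod 4)]

/-- the sign character -/
def sg (a : F₂) : ℤ := if a = 0 then 1 else -1

lemma sg_add (a b : F₂) : sg (a + b) = sg a * sg b := by revert a b; decide

lemma sg_sum {κ : Type*} (s : Finset κ) (a : κ → F₂) : sg (∑ i ∈ s, a i) = ∏ i ∈ s, sg (a i) := by
  classical
  induction s using Finset.induction_on with
  | empty => rfl
  | insert i s h ih => rw [Finset.sum_insert h, Finset.prod_insert h, sg_add, ih]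

lemma gs_plus (m : ℕ) : ∑ v, sg ((plusForm F₂ m).Q v) = 2 ^ m := by
  rw [← (Equiv.arrowProdEquivProdArrow _ _ _).trans (Equiv.sumArrowEquivProdArrow _ _ _).symm
    |>.sum_comp]
  have : ∑ p : F₂ × F₂, sg (p.1 * p.2) = 2 := by decide
  simp [plusForm_Q, Cfsg.quadFormPlus, sg_sum, ← Fintype.prod_sum fun _ (p : F₂ × F₂) =>
    sg (p.1 * p.2), this]

lemma gs_minus (m : ℕ) : ∑ v, sg ((minusForm F₂ m 1 1).Q v) = 2 ^ m * -2 := by
  rw [← (Equiv.sumArrowEquivProdArrow _ _ _).symm.sum_comp, Fintype.sum_prod_type, ← gs_plus,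
    ← show ∑ w : Fin 2 → F₂, sg (w 0 ^ 2 + 1 * w 0 * w 1 + 1 * w 1 ^ 2) = -2 by decide,
    Finset.sum_mul_sum]
  exact Finset.sum_congr rfl fun _ _ => Finset.sum_congr rfl fun _ _ => sg_add _ _

/-- the fourth roots of unity -/
def ch (w : ZMod 4) : GaussianInt := ⟨0, 1⟩ ^ w.val

lemma ch_sum {κ : Type*} (s : Finset κ) (a : κ → ZMod 4) :
    ch (∑ i ∈ s, a i) = ∏ i ∈ s, ch (a i) := by
  classical
  induction s using Finset.induction_on with
  | empty => rfl
  | insert i s h ih =>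
    rw [Finset.sum_insert h, Finset.prod_insert h, ← ih]
    generalize a i = u; generalize ∑ i ∈ s, a i = v; revert u v; decide

instance : DecidablePred (· ∈ S z) := fun _ => decidable_of_iff' _ mem_S

lemma gs_qf {k : ℕ} (h : Fintype.card ι = 4 * k + 4) : ∑ v, sg ((qf z).Q v) = (-4) ^ k * -2 := by
  let ω : ι → F₂ → GaussianInt := fun i a => if i = z ∧ a ≠ 0 then 0 else ch a.val
  have h1 : ∏ i, ∑ a, ω i a = (-4) ^ k * ⟨-2, 2⟩ := by
    rw [← Finset.mul_prod_erase _ _ (Finset.mem_univ z), Finset.prod_congr rfl (g := fun _ => ⟨1, 1⟩)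
      fun i hi => by simp only [ω, Finset.ne_of_mem_erase hi, false_and, if_false]; decide,
      Finset.prod_const, Finset.card_erase_of_mem (Finset.mem_univ _), Finset.card_univ, h,
      show 4 * k + 4 - 1 = 4 * k + 3 from rfl, pow_add, pow_mul]
    simp only [ω, true_and]
    rw [show ∑ a : F₂, (if a ≠ 0 then 0 else ch a.val) = 1 by decide, one_mul]
    rfl
  have h2 : ∀ x : ι → F₂, (∏ i, ω i (x i)).re = if x ∈ S z then sg (hlf (W x)) else 0 := fun x => by
    by_cases hx : x z = 0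
    · rw [Finset.prod_congr rfl (g := fun i => ch (x i).val) fun i _ => if_neg (by
        rintro ⟨rfl, h⟩; exact h hx), ← ch_sum]
      simp only [mem_S, hx, true_and, ← cast_W]
      change (ch (W x)).re = _
      generalize W x = w; revert w; decide
    · rw [Finset.prod_eq_zero (f := fun i => ω i (x i)) (Finset.mem_univ z) (if_pos ⟨rfl, hx⟩),
        if_neg fun h => hx (mem_S.1 h).1]
      rfl
  have h3 := congrArg Zsqrtd.re h1
  rw [Fintype.prod_sum, show ∀ g : (ι → F₂) → GaussianInt, (∑ x, g x).re = ∑ x, (g x).re from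
    fun g => map_sum (AddMonoidHom.mk' Zsqrtd.re Zsqrtd.re_add) g _] at h3
  simp only [h2] at h3
  rw [← Finset.sum_filter, Finset.sum_subtype (p := (· ∈ S z)) _ (by simp)] at h3
  refine h3.trans ?_
  rw [show (-4 : GaussianInt) ^ k = (((-4) ^ k : ℤ) : GaussianInt) by push_cast; rfl]
  generalize (-4 : ℤ) ^ k = c
  simp

theorem o_emb {k : ℕ} (h : Fintype.card ι = 4 * k + 4) (hk : 1 ≤ k) :
    (Odd k → ∃ φ : Equiv.Perm ι →* Cfsg.isometryGroup F₂ (plusForm F₂ (2 * k + 1)).Q,
      Function.Injective φ) ∧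
    (Even k → ∃ φ : Equiv.Perm ι →* Cfsg.isometryGroup F₂ (minusForm F₂ (2 * k) 1 1).Q,
      Function.Injective φ) := by
  haveI : Nontrivial ι := Fintype.one_lt_card_iff_nontrivial.1 (by omega)
  obtain ⟨z⟩ : Nonempty ι := inferInstance
  have h4 : (Fintype.card ι : ZMod 4) = 0 := by
    rw [h]; push_cast; rw [show (4 : ZMod 4) = 0 from rfl]; simp
  have hι : (Fintype.card ι : F₂) = 0 := by
    rw [h]; push_cast; rw [show (4 : ZMod 2) = 0 from rfl]; simp
  have hr := finrank_S (z := z)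
  have hf : (qf z).ND := dot_nd hι
  have hab : ∀ z₁ z₂ : F₂, z₁ ^ 2 + 1 * z₁ * z₂ + 1 * z₂ ^ 2 = 0 → z₁ = 0 ∧ z₂ = 0 := by decide
  have key : ∀ {μ : Type} [Fintype μ] [DecidableEq μ] (f : Form (quadKind F₂) (μ → F₂)) e,
      (qf z).IsIso f e → (∃ φ : Equiv.Perm ι →* Cfsg.isometryGroup F₂ f.Q, Function.Injective φ) ∧
        ∑ v, sg (f.Q v) = (-4) ^ k * -2 := fun f e he =>
    ⟨⟨(isometryEquiv f).symm.toMonoidHom.comp (he.isomEquiv.toMonoidHom.comp
      ((act z hι).codRestrict _ fun σ => (quad_mem_Isom _).2 fun x =>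
        congrArg hlf (W_act hι h4 σ x))), (isometryEquiv f).symm.injective.comp
          (he.isomEquiv.injective.comp
            ((MonoidHom.injective_codRestrict _ _ _).2 (act_inj hι (by omega))))⟩, by
      rw [← gs_qf h (z := z), ← e.toEquiv.sum_comp]
      exact Finset.sum_congr rfl fun v _ => congrArg sg (he.Q v)⟩
  have h0 : (0 : ℤ) < 4 ^ k := by positivity
  by_cases hT : (qf z).HasTS (2 * k + 1)
  · obtain ⟨e, he⟩ := plus_exists_isIso (2 * k + 1) _ _ _ _ hf (plusForm_ND F₂ (2 * k + 1))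
      (by omega) (by simp [two_mul]) hT (plusForm_hasTS _)
    refine ⟨fun _ => (key _ e he).1, fun h1 => ?_⟩
    have := (key _ e he).2
    have h2 : (0 : ℤ) < 2 ^ (2 * k + 1) := by positivity
    rw [gs_plus, h1.neg_pow] at this
    omega
  · obtain ⟨e, he⟩ := minus_exists_isIso (2 * k) _ _ _ _ hf (minusForm_ND (2 * k) hab)
      (by omega) (by simp [two_mul]) hT (minusForm_not_hasTS _ hab)
    refine ⟨fun h1 => ?_, fun _ => (key _ e he).1⟩
    have := (key _ e he).2
    have h2 : (0 : ℤ) < 2 ^ (2 * k) := by positivity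
    rw [gs_minus, h1.neg_pow] at this
    omega

end H4.Ht
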