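import Cfsg.Agent.H4.Orth2
import Cfsg.Agent.H4.Disc
import Cfsg.Agent.H4.QuadCount
import Cfsg.Agent.H4.SL2

/-! `SL₂ × SL₂` acting on two by two matrices: the plus type orthogonal group in dimension four. -/

set_option autoImplicit false

namespace H4.Pl
open Module Form Matrix
open scoped MatrixGroups commutatorElement

section Abs
variable {G H K : Type*} [Group G] [Group H] [Group K]

lemma equiv_of_ker {φ : G →* H} {ψ : G →* K} (hφ : Function.Surjective φ)
    (hψ : Function.Surjective ψ) (h : φ.ker = ψ.ker) : Nonempty (H ≃* K) :=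
  ⟨(QuotientGroup.quotientKerEquivOfSurjective φ hφ).symm.trans
    ((QuotientGroup.quotientMulEquivOfEq h).trans
      (QuotientGroup.quotientKerEquivOfSurjective ψ hψ))⟩

lemma mem_of_odd {N : Subgroup G} [N.Normal] (hN : N.index = 4) {g : G} {n : ℕ} (hn : Odd n)
    (hg : g ^ n = 1) : g ∈ N := by
  have h4 : g ^ 4 ∈ N := hN ▸ N.pow_index_mem g
  obtain ⟨k, rfl⟩ := hn
  have e : g = ((g ^ 4) ^ (k * k + k))⁻¹ := by
    rw [eq_inv_iff_mul_eq_one, ← pow_mul, ← pow_succ',
      show 4 * (k * k + k) + 1 = (2 * k + 1) * (2 * k + 1) by ring, pow_mul, hg, one_pow]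
  rw [e]
  exact N.inv_mem (N.pow_mem h4 _)

/-- The central quotient of the image of `G × G` under a map with diagonal kernel. -/
lemma center_quot (Ψ : G × G →* H) (hs : Function.Surjective Ψ)
    (hk : ∀ a b, Ψ (a, b) = 1 → a = b) :
    Nonempty ((H ⧸ Subgroup.center H) ≃* (G ⧸ Subgroup.center G) × (G ⧸ Subgroup.center G)) := by
  refine equiv_of_ker (φ := (QuotientGroup.mk' _).comp Ψ)
    (ψ := (QuotientGroup.mk' _).prodMap (QuotientGroup.mk' _))
    ((QuotientGroup.mk'_surjective _).comp hs) ?_ ?_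
  · rintro ⟨x, y⟩
    obtain ⟨a, rfl⟩ := QuotientGroup.mk'_surjective _ x
    obtain ⟨b, rfl⟩ := QuotientGroup.mk'_surjective _ y
    exact ⟨(a, b), rfl⟩
  · ext ⟨a, b⟩
    simp only [MonoidHom.mem_ker, MonoidHom.comp_apply, QuotientGroup.mk'_apply,
      QuotientGroup.eq_one_iff, MonoidHom.coe_prodMap, Prod.map_apply, Prod.mk_eq_one,
      Subgroup.mem_center_iff]
    constructor
    · intro h
      refine ⟨fun c => ?_, fun c => ?_⟩
      · have := hk (c * a * (a * c)⁻¹) (1 * b * (b * 1)⁻¹) (by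
          rw [← Prod.mk_mul_mk, ← Prod.inv_mk, ← Prod.mk_mul_mk, ← Prod.mk_mul_mk, map_mul,
            map_inv, map_mul, map_mul, h, mul_inv_cancel])
        simpa [mul_inv_eq_one, -_root_.mul_inv_rev] using this
      · have := hk (1 * a * (a * 1)⁻¹) (c * b * (b * c)⁻¹) (by
          rw [← Prod.mk_mul_mk, ← Prod.inv_mk, ← Prod.mk_mul_mk, ← Prod.mk_mul_mk, map_mul,
            map_inv, map_mul, map_mul, h, mul_inv_cancel])
        have h2 := this.symm
        simpa [mul_inv_eq_one, -_root_.mul_inv_rev] using h2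
    · rintro ⟨ha, hb⟩ g
      obtain ⟨⟨c, d⟩, rfl⟩ := hs g
      rw [← map_mul, ← map_mul, Prod.mk_mul_mk, Prod.mk_mul_mk, ha, hb]

end Abs

variable (F : Type*) [Field F]

/-- Coordinates as a two by two matrix. -/
def mX : (Fin 2 ⊕ Fin 2 → F) ≃ₗ[F] Matrix (Fin 2) (Fin 2) F where
  toFun v := !![v (.inl 0), v (.inl 1); -v (.inr 1), v (.inr 0)]
  invFun X := Sum.elim ![X 0 0, X 0 1] ![X 1 1, -X 1 0]
  map_add' u v := by ext i j; fin_cases i <;> fin_cases j <;> simp [add_comm]
  map_smul' c v := by ext i j; fin_cases i <;> fin_cases j <;> simp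
  left_inv v := by ext i; rcases i with i | i <;> fin_cases i <;> simp
  right_inv X := by ext i j; fin_cases i <;> fin_cases j <;> simp

variable {F}

lemma det_mX (v : Fin 2 ⊕ Fin 2 → F) : (mX F v).det = (plusForm F 2).Q v := by
  rw [plusForm_Q]
  simp [mX, Cfsg.quadFormPlus, det_fin_two]

lemma Q_symm (X : Matrix (Fin 2) (Fin 2) F) : (plusForm F 2).Q ((mX F).symm X) = X.det := by
  rw [← det_mX, LinearEquiv.apply_symm_apply]

lemma cm (a b : SL(2, F)) : (a * b).1 = a.1 * b.1 := rfl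
lemma ci (a : SL(2, F)) : (a⁻¹).1 = adjugate a.1 := rfl
lemma c1 : (1 : SL(2, F)).1 = 1 := rfl

/-- `X ↦ a X b⁻¹` -/
def lr (a b : SL(2, F)) : Matrix (Fin 2) (Fin 2) F ≃ₗ[F] Matrix (Fin 2) (Fin 2) F where
  toFun X := a.1 * X * (b⁻¹).1
  invFun X := (a⁻¹).1 * X * b.1
  map_add' X Y := by rw [mul_add, add_mul]
  map_smul' c X := by simp
  left_inv X := by
    simp only [mul_assoc]
    rw [← cm, inv_mul_cancel, c1, mul_one,
      ← mul_assoc, ← cm, inv_mul_cancel, c1, one_mul]
  right_inv X := by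
    simp only [mul_assoc]
    rw [← cm, mul_inv_cancel, c1, mul_one,
      ← mul_assoc, ← cm, mul_inv_cancel, c1, one_mul]

lemma lr_apply (a b : SL(2, F)) (X : Matrix (Fin 2) (Fin 2) F) :
    lr a b X = a.1 * X * (b⁻¹).1 := rfl

variable (F) in
/-- The action of `SL₂ × SL₂`. -/
def psi : SL(2, F) × SL(2, F) →* (plusForm F 2).Isom where
  toFun p := ⟨(mX F).trans ((lr p.1 p.2).trans (mX F).symm), (quad_mem_Isom _).2 fun x => by
    simp only [LinearEquiv.trans_apply]
    rw [Q_symm, lr_apply, det_mul, det_mul, p.1.2, (p.2⁻¹).2, det_mX, one_mul, mul_one]⟩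
  map_one' := isom_ext fun x => by simp [lr_apply]
  map_mul' p q := isom_ext fun x => by
    simp only [isom_mul_apply, LinearEquiv.trans_apply, LinearEquiv.apply_symm_apply, lr_apply,
      Prod.fst_mul, Prod.snd_mul, _root_.mul_inv_rev, cm, mul_assoc]

lemma psi_apply (a b : SL(2, F)) (v : Fin 2 ⊕ Fin 2 → F) :
    (psi F (a, b)).1 v = (mX F).symm (a.1 * mX F v * (b⁻¹).1) := rfl

lemma psi_eq_one {a b : SL(2, F)} : psi F (a, b) = 1 ↔ a = b ∧ a ∈ Subgroup.center SL(2, F) := by
  constructor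
  · intro h
    have key : ∀ X : Matrix (Fin 2) (Fin 2) F, a.1 * X * (b⁻¹).1 = X := fun X => by
      have := psi_apply a b ((mX F).symm X)
      rw [h, LinearEquiv.apply_symm_apply] at this
      exact ((mX F).symm.injective this).symm
    have hab : a = b := by
      have := key 1
      rw [mul_one, ← cm, ← c1] at this
      exact mul_inv_eq_one.1 (Subtype.ext this)
    subst hab
    refine ⟨rfl, Subgroup.mem_center_iff.2 fun c => ?_⟩
    have := key c.1
    rw [← cm, ← cm] at this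
    have h3 : a * c * a⁻¹ = c := Subtype.ext this
    exact (mul_inv_eq_iff_eq_mul.1 h3).symm
  · rintro ⟨rfl, h⟩
    refine isom_ext fun v => ?_
    rw [psi_apply]
    rcases sl2_mem_center_iff.1 h with rfl | rfl <;> simp

/-- The adjugate. -/
def adj : Matrix (Fin 2) (Fin 2) F ≃ₗ[F] Matrix (Fin 2) (Fin 2) F where
  toFun X := adjugate X
  invFun X := adjugate X
  map_add' X Y := by ext i j; fin_cases i <;> fin_cases j <;> simp [adjugate_fin_two, add_comm]
  map_smul' c X := by ext i j; fin_cases i <;> fin_cases j <;> simp [adjugate_fin_two]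
  left_inv X := by ext i j; fin_cases i <;> fin_cases j <;> simp [adjugate_fin_two]
  right_inv X := by ext i j; fin_cases i <;> fin_cases j <;> simp [adjugate_fin_two]

variable (F) in
/-- The swap. -/
def sw : (plusForm F 2).Isom :=
  ⟨(mX F).trans (adj.trans (mX F).symm), (quad_mem_Isom _).2 fun x => by
    simp only [LinearEquiv.trans_apply]
    rw [Q_symm, ← det_mX]
    change (adjugate (mX F x)).det = _
    simp [det_adjugate]⟩

lemma sw_apply (v : Fin 2 ⊕ Fin 2 → F) : (sw F).1 v = (mX F).symm (adjugate (mX F v)) := rfl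

lemma sw_psi (a b : SL(2, F)) : sw F * psi F (a, b) = psi F (b, a) * sw F :=
  isom_ext fun v => by
    simp only [isom_mul_apply, sw_apply, psi_apply, LinearEquiv.apply_symm_apply,
      adjugate_mul_distrib, mul_assoc]
    rw [← ci, ← ci, inv_inv]

lemma le_of_gens {N : Subgroup (plusForm F 2).Isom} [N.Normal]
    (h1 : ∀ t, psi F (slUp t, 1) ∈ N) (h2 : ∀ t, psi F (slLow t, 1) ∈ N) : (psi F).range ≤ N := by
  have hA : ∀ a, psi F (a, 1) ∈ N := fun a => by
    have := sl2_eq_top (N.comap ((psi F).comp (MonoidHom.inl _ _))) h1 h2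
    have h : a ∈ N.comap ((psi F).comp (MonoidHom.inl _ _)) := this ▸ Subgroup.mem_top a
    exact h
  rintro _ ⟨⟨a, b⟩, rfl⟩
  have e : psi F (a, b) = psi F (a, 1) * (sw F * psi F (b, 1) * (sw F)⁻¹) := by
    rw [sw_psi, mul_inv_cancel_right, ← map_mul]; simp
  rw [e]
  exact N.mul_mem (hA a) (Subgroup.Normal.conj_mem inferInstance _ (hA b) _)

lemma up_comm {α : F} (h0 : α ≠ 0) (h : α * α ≠ 1) (t : F) :
    slUp t ∈ commutator SL(2, F) ∧ slLow t ∈ commutator SL(2, F) := by
  have h' : α * α - 1 ≠ 0 := sub_ne_zero.2 h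
  have h'' : α ^ 2 - 1 ≠ 0 := by rwa [sq]
  let d : SL(2, F) := sl2 α 0 0 α⁻¹ (by simp [h0])
  have e1 : slUp t = ⁅d, slUp (t / (α * α - 1))⁆ := by
    rw [commutatorElement_def, eq_mul_inv_iff_mul_eq, eq_mul_inv_iff_mul_eq]
    apply Subtype.ext
    simp only [cm, d, coe_sl2, coe_slUp]
    ext i j; fin_cases i <;> fin_cases j <;> simp <;> field_simp <;> ring
  have e2 : slLow t = ⁅d⁻¹, slLow (t / (α * α - 1))⁆ := by
    rw [commutatorElement_def, eq_mul_inv_iff_mul_eq, inv_inv, mul_assoc, eq_inv_mul_iff_mul_eq]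
    apply Subtype.ext
    simp only [cm, d, coe_sl2, coe_slLow]
    ext i j; fin_cases i <;> fin_cases j <;> simp <;> field_simp <;> ring
  exact ⟨e1 ▸ Subgroup.commutator_mem_commutator (Subgroup.mem_top _) (Subgroup.mem_top _),
    e2 ▸ Subgroup.commutator_mem_commutator (Subgroup.mem_top _) (Subgroup.mem_top _)⟩

variable [Finite F]

lemma card_isom : Nat.card (plusForm F 2).Isom =
    2 * Nat.card SL(2, F) * Nat.card SL(2, F) := by
  have h := card_GO_plus (F := F) 1
  rw [← plusForm_Q, Nat.card_congr (isometryEquiv _).toEquiv] at h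
  rw [card_sl2]
  refine h.trans ?_
  obtain ⟨k, hk⟩ : ∃ k, Nat.card F = k + 1 := ⟨_, (Nat.succ_pred_eq_of_pos Nat.card_pos).symm⟩
  have e : (k + 1) ^ 2 - 1 = k * (k + 2) := by
    rw [show (k + 1) ^ 2 = k * (k + 2) + 1 by ring, Nat.add_sub_cancel]
  simp only [hk, Finset.prod_range_one, Nat.add_sub_cancel, zero_add, mul_one, one_add_one_eq_two, e]
  ring

omit [Finite F] in
lemma psi_injective (h2 : (2 : F) = 0) : Function.Injective (psi F) := by
  rw [injective_iff_map_eq_one]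
  rintro ⟨a, b⟩ h
  obtain ⟨rfl, h'⟩ := psi_eq_one.1 h
  have : (-1 : SL(2, F)) = 1 := by
    apply Subtype.ext
    have : (-1 : F) = 1 := by linear_combination -h2
    ext i j; fin_cases i <;> fin_cases j <;> simp [this]
  rcases sl2_mem_center_iff.1 h' with rfl | rfl
  · rfl
  · rw [this]; rfl

omit [Finite F] in
lemma card_ker (h2 : (2 : F) ≠ 0) : Nat.card (psi F).ker = 2 := by
  have hne : ((-1 : SL(2, F)), (-1 : SL(2, F))) ≠ 1 := fun h => h2 (by
    have := congrArg (fun p : SL(2, F) × SL(2, F) => p.1.1 0 0) h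
    simp at this
    linear_combination -this)
  rw [Nat.card_eq_two_iff' ⟨1, one_mem _⟩]
  refine ⟨⟨(-1, -1), psi_eq_one.2 ⟨rfl, sl2_mem_center_iff.2 (Or.inr rfl)⟩⟩,
    fun h => hne (congrArg Subtype.val h), ?_⟩
  rintro ⟨⟨a, b⟩, h⟩ h1
  obtain ⟨rfl, h'⟩ := psi_eq_one.1 h
  rcases sl2_mem_center_iff.1 h' with rfl | rfl
  · exact (h1 rfl).elim
  · rfl

theorem range_psi (hF : Nat.card F ≠ 2) : (psi F).range = commutator (plusForm F 2).Isom := by
  have hc := card_isom (F := F)
  have hpos : 0 < Nat.card SL(2, F) := Nat.card_pos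
  have hr := (psi F).ker.card_mul_index
  rw [Subgroup.index_ker, Nat.card_prod] at hr
  have hi := (commutator (plusForm F 2).Isom).card_mul_index
  haveI : Finite (plusForm F 2).Isom := Nat.finite_of_card_ne_zero (by rw [hc]; positivity)
  by_cases h2 : (2 : F) = 0
  · obtain ⟨α, h0, h1⟩ := exists_ne_zero_one hF
    have hα : α * α ≠ 1 := fun h => h1 (by
      have : (α - 1) * (α - 1) = 0 := by linear_combination h + (1 - α) * h2
      exact sub_eq_zero.1 (mul_self_eq_zero.1 this))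
    have hm : ∀ a ∈ commutator SL(2, F), psi F (a, 1) ∈ commutator (plusForm F 2).Isom :=
      fun a ha => by
        have h : (commutator SL(2, F)).map ((psi F).comp (MonoidHom.inl _ _)) ≤
            commutator (plusForm F 2).Isom := by
          rw [commutator_def, Subgroup.map_commutator]
          exact Subgroup.commutator_mono le_top le_top
        exact h ⟨a, ha, rfl⟩
    apply Subgroup.eq_of_le_of_card_ge
      (le_of_gens (fun t => hm _ (up_comm h0 hα t).1) (fun t => hm _ (up_comm h0 hα t).2))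
    rw [index_commutator_even (plusForm_ND F 2) h2 (by simp)
      (closure_reflSet (plusForm_ND F 2) (Or.inl ⟨α, h0, h1⟩)), hc] at hi
    rw [(MonoidHom.ker_eq_bot_iff _).2 (psi_injective h2), Subgroup.card_bot] at hr
    nlinarith
  · have hix := index_commutator_odd (plusForm_ND F 2) h2 (by simp)
    have hodd : Odd (ringChar F) := by
      haveI := ringChar.charP F
      refine (CharP.char_is_prime F (ringChar F)).odd_of_ne_two fun h => h2 ?_
      have := CharP.cast_eq_zero F (ringChar F)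
      rw [h] at this
      exact_mod_cast this
    apply Subgroup.eq_of_le_of_card_ge (le_of_gens (fun t => mem_of_odd hix hodd ?_)
      (fun t => mem_of_odd hix hodd ?_))
    · rw [hix, hc] at hi
      rw [card_ker h2] at hr
      nlinarith
    · rw [← map_pow, Prod.pow_mk, slUp_pow, one_pow]; simp [slUp_zero, Prod.mk_one_one]
    · rw [← map_pow, Prod.pow_mk, slLow_pow, one_pow]; simp [slLow_zero, Prod.mk_one_one]

theorem s299 (hF : Nat.card F ≠ 2) : Nonempty (Cfsg.POmega F (plusForm F 2).Q ≃*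
    Matrix.ProjectiveSpecialLinearGroup (Fin 2) F ×
      Matrix.ProjectiveSpecialLinearGroup (Fin 2) F) := by
  have h := range_psi hF
  obtain ⟨e⟩ := center_quot ((psi F).codRestrict (commutator (plusForm F 2).Isom)
    fun x => h ▸ ⟨x, rfl⟩) (fun y => by
      obtain ⟨x, hx⟩ : y.1 ∈ (psi F).range := by rw [h]; exact y.2
      exact ⟨x, Subtype.ext hx⟩)
    (fun a b hab => (psi_eq_one.1 (congrArg Subtype.val hab)).1)
  exact ⟨(pomegaEquiv _).trans e⟩

theorem s2566 (hF : Nat.card F = 2) (h2 : (2 : F) = 0) (e : SL(2, F) ≃* Equiv.Perm (Fin 3)) :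
    Nat.card (Cfsg.isometryGroup F (plusForm F 2).Q) = 72 ∧
    ∃ (A B : Subgroup (Cfsg.isometryGroup F (plusForm F 2).Q)),
      Nonempty (A ≃* Equiv.Perm (Fin 3)) ∧ Nonempty (B ≃* Equiv.Perm (Fin 3)) ∧ A ⊓ B = ⊥ ∧
      (∀ a ∈ A, ∀ b ∈ B, a * b = b * a) ∧ (A ⊔ B).index = 2 ∧
      ∃ g : Cfsg.isometryGroup F (plusForm F 2).Q, A.map (MulAut.conj g).toMonoidHom = B := by
  have h6 : Nat.card SL(2, F) = 6 := by rw [card_sl2, hF]
  have hc : Nat.card (Cfsg.isometryGroup F (plusForm F 2).Q) = 72 := by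
    rw [Nat.card_congr (isometryEquiv _).toEquiv, card_isom, h6]
  set ι := (isometryEquiv (plusForm F 2)).symm
  let Φ : SL(2, F) × SL(2, F) →* Cfsg.isometryGroup F (plusForm F 2).Q :=
    ι.toMonoidHom.comp (psi F)
  have hΦ : Function.Injective Φ := ι.injective.comp (psi_injective h2)
  have hA : Function.Injective (Φ.comp (MonoidHom.inl _ _)) := fun a b h =>
    congrArg Prod.fst (hΦ h)
  have hB : Function.Injective (Φ.comp (MonoidHom.inr _ _)) := fun a b h =>
    congrArg Prod.snd (hΦ h)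
  have hsw : ∀ a b, ι (sw F) * Φ (a, b) * (ι (sw F))⁻¹ = Φ (b, a) := fun a b => by
    change ι _ * ι _ * _ = ι _
    rw [← map_mul, sw_psi, map_mul, mul_inv_cancel_right]
  refine ⟨hc, (Φ.comp (MonoidHom.inl _ _)).range, (Φ.comp (MonoidHom.inr _ _)).range,
    ⟨(MonoidHom.ofInjective hA).symm.trans e⟩, ⟨(MonoidHom.ofInjective hB).symm.trans e⟩,
    ?_, ?_, ?_, ι (sw F), ?_⟩
  · rw [eq_bot_iff]
    rintro _ ⟨⟨a, rfl⟩, ⟨b, hb⟩⟩
    have : a = 1 := (congrArg Prod.fst (hΦ hb)).symm
    rw [this, map_one]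
    exact one_mem _
  · rintro _ ⟨a, rfl⟩ _ ⟨b, rfl⟩
    simp only [MonoidHom.comp_apply, ← map_mul]
    simp
  · have : (Φ.comp (MonoidHom.inl _ _)).range ⊔ (Φ.comp (MonoidHom.inr _ _)).range = Φ.range := by
      apply le_antisymm
      · exact sup_le (by rintro _ ⟨a, rfl⟩; exact ⟨_, rfl⟩) (by rintro _ ⟨a, rfl⟩; exact ⟨_, rfl⟩)
      · rintro _ ⟨⟨a, b⟩, rfl⟩
        have : Φ (a, b) = Φ (a, 1) * Φ (1, b) := by rw [← map_mul]; simp
        rw [this]
        exact Subgroup.mul_mem_sup ⟨a, rfl⟩ ⟨b, rfl⟩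
    rw [this]
    have h1 := Φ.range.card_mul_index
    rw [hc, ← Nat.card_congr (MonoidHom.ofInjective hΦ).toEquiv, Nat.card_prod, h6] at h1
    omega
  · ext x
    constructor
    · rintro ⟨_, ⟨a, rfl⟩, rfl⟩
      exact ⟨a, (hsw a 1).symm⟩
    · rintro ⟨a, rfl⟩
      exact ⟨_, ⟨a, rfl⟩, hsw a 1⟩

end H4.Pl
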