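import Cfsg.Agent.H4.WlA

/-! Regular nilpotent endomorphisms. -/

set_option autoImplicit false

namespace H4
open Module Form Submodule Polynomial

universe u

lemma card_split {S G A : Type*} [Group S] [Group G] [CommGroup A] (e : S →* G)
    (inj : Function.Injective e) (φ : G →* A) (hφ : Function.Surjective φ) (he : e.range = φ.ker)
    (P : S → Prop) (u : S) (hP : ∀ s, P s ↔ IsConj (e u) (e s)) :
    Nat.card {C : ConjClasses S // ∃ s, ConjClasses.mk s = C ∧ P s} =
      ((Subgroup.centralizer {e u}).map φ).index := by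
  rw [← Subgroup.index_comap_of_surjective _ hφ]
  choose c hc using fun g : G => he.ge (x := g * e u * g⁻¹) (by
    have : φ (e u) = 1 := he.le ⟨u, rfl⟩
    simp [this])
  have key : ∀ a b, a⁻¹ * b ∈ ((Subgroup.centralizer {e u}).map φ).comap φ ↔ IsConj (c a) (c b) := by
    intro a b
    rw [isConj_iff]
    constructor
    · rintro ⟨z, h1, h2⟩
      obtain ⟨s, hs⟩ := he.ge (x := b * z⁻¹ * a⁻¹) (by simp [h2])
      refine ⟨s, inj ?_⟩
      rw [map_mul, map_mul, map_inv, hc, hc, hs]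
      have := Subgroup.mem_centralizer_singleton_iff.1 h1
      calc _ = b * (z⁻¹ * (e u * z)) * b⁻¹ := by group
        _ = _ := by rw [← this]; group
    · rintro ⟨s, hs⟩
      have h1 := congrArg e hs
      rw [map_mul, map_mul, map_inv, hc, hc] at h1
      have h2 : φ (e s) = 1 := he.le ⟨s, rfl⟩
      refine ⟨a⁻¹ * (e s)⁻¹ * b, Subgroup.mem_centralizer_singleton_iff.2 ?_, by simp [h2]⟩
      calc _ = a⁻¹ * (e s)⁻¹ * (b * e u * b⁻¹) * b := by group
        _ = _ := by rw [← h1]; group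
  refine (Nat.card_eq_of_bijective (Quotient.lift (fun g => ⟨_, c g, rfl, (hP _).2
    (isConj_iff.2 ⟨g, (hc g).symm⟩)⟩) fun a b h => Subtype.ext (ConjClasses.mk_eq_mk_iff_isConj.2
      ((key a b).1 (QuotientGroup.leftRel_apply.1 h)))) ⟨?_, ?_⟩).symm
  · rintro ⟨a⟩ ⟨b⟩ h
    exact QuotientGroup.eq.2 ((key a b).2 (ConjClasses.mk_eq_mk_iff_isConj.1
      (congrArg Subtype.val h)))
  · rintro ⟨_, s, rfl, hs⟩
    obtain ⟨g, hg⟩ := isConj_iff.1 ((hP s).1 hs)
    exact ⟨QuotientGroup.mk g, Subtype.ext (congrArg ConjClasses.mk (inj ((hc g).trans hg)))⟩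

section Reg
variable {F : Type*} [Field F] {V : Type u} [AddCommGroup V] [Module F V] [FiniteDimensional F V]

lemma nilp_pow {N : End F V} (h : IsNilpotent N) : N ^ finrank F V = 0 := by
  simpa [h.charpoly_eq_X_pow_finrank] using N.aeval_self_charpoly

lemma det_nilp {g : End F V} {c : F} (h : IsNilpotent (g - c • 1)) :
    LinearMap.det g = c ^ finrank F V := by
  have := LinearMap.eval_charpoly (-(g - c • 1)) c
  rw [h.neg.charpoly_eq_X_pow_finrank, Algebra.algebraMap_eq_smul_one] at this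
  simpa using this.symm

/-- regular nilpotent endomorphisms -/
structure Reg (N : End F V) : Prop where
  nilp : IsNilpotent N
  ker : finrank F (LinearMap.ker N) ≤ 1

namespace Reg
variable {N N' : End F V} (h : Reg N)
include h

lemma ker_pow (k : ℕ) : finrank F (LinearMap.ker (N ^ k)) ≤ k := by
  induction k with
  | zero => simp [End.one_eq_id]
  | succ k ih =>
    let φ : LinearMap.ker (N ^ (k + 1)) →ₗ[F] LinearMap.ker (N ^ k) :=
      N.restrict fun x hx => by simpa [pow_succ] using hx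
    have h1 := LinearMap.finrank_range_add_finrank_ker φ
    have h2 := Submodule.finrank_le (LinearMap.range φ)
    have h3 := Submodule.finrank_mono (show (LinearMap.ker φ).map (Submodule.subtype _) ≤
      LinearMap.ker N by rintro _ ⟨x, hx, rfl⟩; exact congrArg Subtype.val hx)
    rw [finrank_map_subtype_eq] at h3
    have := h.ker
    omega

lemma inv_eq {W : Submodule F V} (hW : ∀ v ∈ W, N v ∈ W) : W = LinearMap.ker (N ^ finrank F W) := by
  refine eq_of_le_of_finrank_le (fun v hv => ?_) (h.ker_pow _)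
  have := LinearMap.congr_fun (nilp_pow (End.isNilpotent.restrict hW h.nilp)) ⟨v, hv⟩
  rw [End.pow_restrict] at this
  exact congrArg Subtype.val this

lemma ker_le {W : Submodule F V} (hW : ∀ v ∈ W, N v ∈ W) (h0 : W ≠ ⊥) : LinearMap.ker N ≤ W := by
  rw [h.inv_eq hW]
  obtain ⟨k, hk⟩ := Nat.exists_eq_succ_of_ne_zero (mt finrank_eq_zero.1 h0)
  intro x hx
  simp [hk, pow_succ, LinearMap.mem_ker.1 hx]

variable {n : ℕ} (hn : finrank F V = n + 1)
include hn

lemma exists_cyc : ∃ v, (N ^ n) v ≠ 0 := by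
  by_contra! h1
  have := h.ker_pow n
  rw [LinearMap.ker_eq_top.2 (LinearMap.ext h1), finrank_top] at this
  omega

lemma pow_eq : N ^ (n + 1) = 0 := hn ▸ nilp_pow h.nilp

lemma finrank_ker_pow : finrank F (LinearMap.ker (N ^ n)) = n := by
  have h1 : finrank F (LinearMap.range N) ≥ n := by
    have := LinearMap.finrank_range_add_finrank_ker N
    have := h.ker
    omega
  refine le_antisymm (h.ker_pow n) (h1.trans (Submodule.finrank_mono ?_))
  rintro _ ⟨x, rfl⟩
  rw [LinearMap.mem_ker, ← End.mul_apply, ← pow_succ, h.pow_eq hn]; rfl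

lemma range_eq : LinearMap.range N = LinearMap.ker (N ^ n) := by
  refine eq_of_le_of_finrank_le ?_ ?_
  · rintro _ ⟨x, rfl⟩
    rw [LinearMap.mem_ker, ← End.mul_apply, ← pow_succ, h.pow_eq hn]; rfl
  · have := LinearMap.finrank_range_add_finrank_ker N
    have := h.ker
    have := h.ker_pow n
    omega

variable {v : V} (hv : (N ^ n) v ≠ 0)
include hv

lemma span_eq : span F (Set.range fun i : Fin (n + 1) => (N ^ (i : ℕ)) v) = ⊤ := by
  set U := span F (Set.range fun i : Fin (n + 1) => (N ^ (i : ℕ)) v)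
  have h1 := h.inv_eq (W := U) fun x hx => by
    refine (map_span_le N _ U).2 ?_ ⟨x, hx, rfl⟩
    rintro _ ⟨i, rfl⟩
    rw [← End.mul_apply, ← pow_succ']
    rcases Nat.lt_or_ge (i + 1) (n + 1) with e | e
    · exact subset_span ⟨⟨_, e⟩, rfl⟩
    · rw [show (i : ℕ) + 1 = n + 1 by omega, h.pow_eq hn]; exact zero_mem _
  refine eq_top_of_finrank_eq (le_antisymm (Submodule.finrank_le _) (not_lt.1 fun e => hv ?_))
  have h2 : v ∈ LinearMap.ker (N ^ finrank F U) := h1 ▸ subset_span ⟨0, rfl⟩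
  obtain ⟨k, hk⟩ := Nat.exists_eq_add_of_le' (show finrank F U ≤ n by omega)
  rw [hk, pow_add, End.mul_apply, LinearMap.mem_ker.1 h2, map_zero]

lemma ext {a b : End F V} (ha : a * N = N' * a) (hb : b * N = N' * b) (e : a v = b v) : a = b :=
  LinearMap.ext_on_range (h.span_eq hn hv) fun i => by
    rw [← End.mul_apply, ← End.mul_apply, (SemiconjBy.pow_right ha i).eq,
      (SemiconjBy.pow_right hb i).eq, End.mul_apply, End.mul_apply, e]

lemma exists_map (h' : IsNilpotent N') (w : V) : ∃ g : End F V, g * N = N' * g ∧ g v = w := by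
  let b := basisOfTopLeSpanOfCardEqFinrank _ (h.span_eq hn hv).ge (by simp [hn])
  have hb : ∀ i, b i = (N ^ (i : ℕ)) v := fun i => by simp [b]
  let g := b.constr F fun i => (N' ^ (i : ℕ)) w
  have hg : ∀ i : Fin (n + 1), g ((N ^ (i : ℕ)) v) = (N' ^ (i : ℕ)) w := fun i => by
    rw [← hb, b.constr_basis]
  refine ⟨g, b.ext fun i => ?_, hg 0⟩
  rw [hb, End.mul_apply, End.mul_apply, hg, ← End.mul_apply N, ← End.mul_apply N', ← pow_succ',
    ← pow_succ']
  rcases Nat.lt_or_ge (i + 1) (n + 1) with e | e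
  · exact hg ⟨_, e⟩
  · rw [show (i : ℕ) + 1 = n + 1 by omega, h.pow_eq hn, ← hn, nilp_pow h']; simp

lemma exists_equiv (h' : Reg N') {w : V} (hw : (N' ^ n) w ≠ 0) :
    ∃ g : V ≃ₗ[F] V, g.toLinearMap * N = N' * g.toLinearMap ∧ g v = w := by
  obtain ⟨g, h1, h2⟩ := h.exists_map hn hv h'.nilp w
  obtain ⟨k, h3, h4⟩ := h'.exists_map hn hw h.nilp v
  have h5 : k * g = 1 := h.ext hn hv (N' := N) (by rw [mul_assoc, h1, ← mul_assoc, h3, mul_assoc])
    (by simp) (by simp [h2, h4])
  exact ⟨LinearEquiv.ofLinear g k (mul_eq_one_comm.1 h5) h5, h1, h2⟩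

lemma decomp (w : V) : ∃ (c : F) (y : V), w = c • v + N y := by
  have := eq_sup_span_of_finrank (le_top (a := LinearMap.range N)) (x := v) trivial
    (by rwa [h.range_eq hn]) (by rw [finrank_top, h.range_eq hn, h.finrank_ker_pow hn, hn])
  obtain ⟨_, ⟨y, rfl⟩, _, h1, rfl⟩ := mem_sup.1 (this.le (mem_top (x := w)))
  obtain ⟨c, rfl⟩ := mem_span_singleton.1 h1
  exact ⟨c, y, add_comm _ _⟩

lemma comm {a b : End F V} (ha : a * N = N * a) (hb : b * N = N * b) : a * b = b * a := by
  obtain ⟨c, hc⟩ := (Submodule.mem_span_range_iff_exists_fun F).1 ((h.span_eq hn hv).ge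
    (mem_top (x := b v)))
  have : b = ∑ i : Fin (n + 1), c i • N ^ (i : ℕ) := h.ext hn hv hb (by
    simp [Finset.sum_mul, Finset.mul_sum, ← pow_succ, ← pow_succ']) (by simp [← hc])
  rw [this, Finset.sum_mul, Finset.mul_sum]
  exact Finset.sum_congr rfl fun i _ => by simp [(Commute.pow_right ha i).eq]

lemma nilp_of {a : End F V} (ha : a * N = N * a) {y : V} (e : a v = N y) : IsNilpotent a := by
  obtain ⟨b, h1, h2⟩ := h.exists_map hn hv h.nilp y
  rw [h.ext hn hv (b := N * b) ha (by rw [mul_assoc, h1]) (by simp [e, h2])]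
  exact Commute.isNilpotent_mul_right h1.symm h.nilp

omit hv in
lemma cent {a : End F V} (ha : a * N = N * a) : ∃ c : F, IsNilpotent (a - c • 1) := by
  obtain ⟨v, hv⟩ := h.exists_cyc hn
  obtain ⟨c, y, e⟩ := h.decomp hn hv (a v)
  exact ⟨c, h.nilp_of hn hv (by simp [sub_mul, mul_sub, ha]) (y := y) (by simp [e])⟩

end Reg

omit [FiniteDimensional F V] in
lemma comm_nil {g t t' : V ≃ₗ[F] V} :
    g * t = t' * g ↔ g.toLinearMap * nil t = nil t' * g.toLinearMap := by
  rw [comm_iff_nil, LinearMap.ext_iff]; rfl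

lemma Reg.conj {t t' : V ≃ₗ[F] V} (h : Reg (nil t)) (h' : Reg (nil t')) : ∃ g, g * t = t' * g := by
  rcases hn : finrank F V with _ | n
  · haveI := finrank_zero_iff.1 hn
    exact ⟨1, LinearEquiv.ext fun _ => Subsingleton.elim _ _⟩
  obtain ⟨v, hv⟩ := h.exists_cyc hn
  obtain ⟨w, hw⟩ := h'.exists_cyc hn
  obtain ⟨g, hg, -⟩ := h.exists_equiv hn hv h' hw
  exact ⟨g, comm_nil.2 hg⟩

lemma Reg.of_conj {g t t' : V ≃ₗ[F] V} (h : Reg (nil t)) (hg : g * t = t' * g) : Reg (nil t') := by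
  have h1 := rk_conj hg
  have h2 := LinearMap.finrank_range_add_finrank_ker (nil t)
  have h3 := LinearMap.finrank_range_add_finrank_ker (nil t')
  obtain ⟨k, hk⟩ := h.nilp
  refine ⟨⟨k, LinearMap.ext fun x => ?_⟩, by have := h.ker; rw [rk, rk] at h1; omega⟩
  obtain ⟨x, rfl⟩ := g.surjective x
  have := LinearMap.congr_fun (SemiconjBy.pow_right (comm_nil.1 hg) k) x
  simpa [hk] using this.symm

omit [FiniteDimensional F V] in
lemma Reg.mul {N u : End F V} (h : Reg N) (hu : Function.Injective u) (hc : u * N = N * u) :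
    Reg (u * N) :=
  ⟨Commute.isNilpotent_mul_left hc h.nilp, by
    rw [End.mul_eq_comp, LinearMap.ker_comp_of_ker_eq_bot _ (LinearMap.ker_eq_bot.2 hu)]; exact h.ker⟩

omit [FiniteDimensional F V] in
lemma nil_inv (t : V ≃ₗ[F] V) : nil t⁻¹ = (-(t⁻¹).toLinearMap) * nil t := by
  ext; simp [nil_apply]

omit [FiniteDimensional F V] in
lemma Reg.inv {t : V ≃ₗ[F] V} (h : Reg (nil t)) : Reg (nil t⁻¹) := by
  rw [nil_inv]
  exact h.mul (neg_injective.comp t⁻¹.injective) (by ext; simp [nil_apply])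

lemma Reg.card_cent [Finite F] {t : V ≃ₗ[F] V} (h : Reg (nil t)) {n : ℕ} (hn : finrank F V = n + 1) :
    Nat.card (Subgroup.centralizer {t}) = (Nat.card F - 1) * Nat.card F ^ n := by
  obtain ⟨v, hv⟩ := h.exists_cyc hn
  have := card_diff (le_top (a := LinearMap.ker (nil t ^ n)))
  rw [finrank_top, hn, h.finrank_ker_pow hn] at this
  rw [Nat.sub_mul, one_mul, ← pow_succ', ← this]
  have a : ∀ g : Subgroup.centralizer {t}, g.1.toLinearMap * nil t = nil t * g.1.toLinearMap :=
    fun g => comm_nil.1 (Subgroup.mem_centralizer_singleton_iff.1 g.2)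
  refine Nat.card_eq_of_bijective (fun g => ⟨g.1 v, trivial, fun e => hv (g.1.injective ?_)⟩)
    ⟨fun x y e => Subtype.ext (LinearEquiv.toLinearMap_injective
      (h.ext hn hv (a x) (a y) (congrArg Subtype.val e))), fun w => ?_⟩
  · exact (LinearMap.congr_fun (Commute.pow_right (a g) n) v).trans (e.trans (map_zero _).symm)
  · obtain ⟨g, h1, h2⟩ := h.exists_equiv hn hv h w.2.2
    exact ⟨⟨g, Subgroup.mem_centralizer_singleton_iff.2 (comm_nil.2 h1)⟩, Subtype.ext h2⟩

lemma Reg.det_cent {t g : V ≃ₗ[F] V} (h : Reg (nil t)) (hn : finrank F V ≠ 0) (hg : g * t = t * g) :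
    ∃ c : F, IsNilpotent (g.toLinearMap - c • 1) ∧ (LinearEquiv.det g : F) = c ^ finrank F V := by
  obtain ⟨n, hn⟩ := Nat.exists_eq_succ_of_ne_zero hn
  obtain ⟨c, hc⟩ := h.cent hn (comm_nil.1 hg)
  exact ⟨c, hc, (LinearEquiv.coe_det g).trans (det_nilp hc)⟩

lemma det_unip {t : V ≃ₗ[F] V} (h : IsNilpotent (nil t)) : LinearEquiv.det t = 1 :=
  Units.ext ((LinearEquiv.coe_det t).trans ((det_nilp (c := 1) (by rwa [one_smul])).trans
    (one_pow _)))

lemma exists_reg (V : Type u) [AddCommGroup V] [Module F V] [FiniteDimensional F V] :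
    ∃ t : V ≃ₗ[F] V, Reg (nil t) := by
  obtain ⟨n, hn⟩ : ∃ n, finrank F V = n := ⟨_, rfl⟩
  let N : End F (Fin n → F) := LinearMap.pi fun i =>
    if h : i.1 + 1 < n then LinearMap.proj ⟨_, h⟩ else 0
  have h1 : ∀ k x i, (N ^ k) x i = if h : i.1 + k < n then x ⟨_, h⟩ else 0 := fun k => by
    induction k with
    | zero => simp
    | succ k ih =>
      intro x i
      rw [pow_succ', End.mul_apply]
      simp only [N, LinearMap.pi_apply] at ih ⊢
      split_ifs with a b b
      · simp [ih, add_assoc, add_comm 1 k, b]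
      · simp [ih, add_assoc, add_comm 1 k, b]
      · omega
      · rfl
  have h2 : Reg N := ⟨⟨n, LinearMap.ext fun x => funext fun i => by simp [h1]⟩, by
    refine finrank_le_one_iff.2 ⟨⟨fun i => if i.1 = 0 then 1 else 0, funext fun i => ?_⟩,
      fun x => ⟨if h : 0 < n then x.1 ⟨0, h⟩ else 0, Subtype.ext (funext fun i => ?_)⟩⟩
    · have := h1 1 (fun i => if i.1 = 0 then 1 else 0) i
      simpa using this
    · obtain ⟨_ | i, hi⟩ := i
      · simp [hi]
      · have := h1 1 x ⟨i, by omega⟩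
        rw [pow_one, LinearMap.mem_ker.1 x.2] at this
        simpa [hi, show 0 < i + 1 + 1 from by omega, Nat.zero_lt_of_lt hi] using this⟩
  let e : (Fin n → F) ≃ₗ[F] V := LinearEquiv.ofFinrankEq _ _ (by simp [hn])
  let t := LinearEquiv.ofBijective (1 + N) ((End.isUnit_iff _).1 h2.nilp.isUnit_one_add)
  have h3 : nil t = N := LinearMap.ext fun x => by simp [nil_apply, t]
  have h4 : nil (linConj e t) = e.conj N := by ext x; simp [nil_apply, ← h3, LinearEquiv.conj_apply]
  refine ⟨linConj e t, h4 ▸ ⟨h2.nilp.map (e.conjRingEquiv), ?_⟩⟩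
  rw [LinearEquiv.conj_apply, LinearMap.ker_comp, LinearEquiv.ker_comp, comap_equiv_eq_map_symm,
    LinearEquiv.finrank_map_eq]
  exact h2.ker

lemma reg_iff {n : ℕ} {t : (Fin n → F) ≃ₗ[F] (Fin n → F)} {M : Matrix (Fin n) (Fin n) F}
    (h : ∀ v, t v = M.mulVec v) : Reg (nil t) ↔ (M - 1) ^ n = 0 ∧ (M - 1).rank = n - 1 := by
  obtain ⟨h1, h2⟩ := rk_eq_rank h
  have h3 := LinearMap.finrank_range_add_finrank_ker (nil t)
  have h4 : ∀ k, nil t ^ k = Matrix.toLin' ((M - 1) ^ k) := fun k => by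
    rw [h2, Matrix.toLin'_pow]; rfl
  rw [← h1, rk]
  simp only [finrank_fintype_fun_eq_card, Fintype.card_fin] at h3
  constructor
  · intro a
    refine ⟨Matrix.toLin'.injective (by simpa [h4] using nilp_pow a.nilp), ?_⟩
    rcases n with _ | n
    · omega
    · rw [a.range_eq (n := n) (by simp), a.finrank_ker_pow (by simp)]; rfl
  · exact fun a => ⟨⟨n, by simp [h4, a.1]⟩, by omega⟩

end Reg

section Forms
variable {F : Type*} [Field F] {K : Kind F} {V : Type u} [AddCommGroup V] [Module F V]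
  [FiniteDimensional F V] {f : Form K V} (hf : f.ND)

lemma ad_pow (X : End F V) (k : ℕ) : ad hf (X ^ k) = ad hf X ^ k := by
  induction k with
  | zero => simp [ad_one]
  | succ k ih => rw [pow_succ, ad_mul, ih, pow_succ']

lemma ad_zero : ad hf 0 = 0 := map_zero (adH hf)
lemma ad_sub (X Y : End F V) : ad hf (X - Y) = ad hf X - ad hf Y := map_sub (adH hf) X Y

lemma nilp_ad {X : End F V} (h : IsNilpotent X) : IsNilpotent (ad hf X) :=
  h.imp fun k hk => by rw [← ad_pow, hk, ad_zero]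

lemma Reg.ad {N : End F V} (h : Reg N) : Reg (ad hf N) := by
  refine ⟨nilp_ad hf h.nilp, ?_⟩
  have h1 : LinearMap.ker (H4.ad hf N) = f.perp (LinearMap.range N) := by
    ext x
    rw [mem_perp', LinearMap.mem_ker]
    exact ⟨fun e _ ⟨y, hy⟩ => by rw [← hy, ← ad_B hf, e]; simp,
      fun e => hf _ fun y => by rw [ad_B]; exact e _ ⟨y, rfl⟩⟩
  have := hf.finrank_perp (LinearMap.range N)
  have := LinearMap.finrank_range_add_finrank_ker N
  have := h.ker
  rw [h1]; omega

include hf in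
lemma exists_inv_form : ∃ A G : V ≃ₗ[F] V, Reg (nil A) ∧
    ∀ x y, f.B (A x) (G (A y)) = f.B x (G y) := by
  obtain ⟨A, hA⟩ := exists_reg (F := F) V
  have h1 := (hA.ad hf).nilp.isUnit_one_add
  let A' := LinearEquiv.ofBijective _ ((End.isUnit_iff _).1 h1)
  have h2 : nil A' = ad hf (nil A) := by ext x; simp [nil_apply, A']
  obtain ⟨G, hG⟩ := hA.conj (t' := A'⁻¹) (Reg.inv (h2 ▸ hA.ad hf))
  refine ⟨A, G, hA, fun x y => ?_⟩
  have h3 : ∀ x y, f.B x (A' y) = f.B (A x) y := fun x y => by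
    simp [A', B_ad, nil_apply]
  rw [← h3, show G (A y) = A'⁻¹ (G y) from LinearEquiv.congr_fun hG y, lin_apply_inv]

include hf in
lemma norm_of_nilp [Nontrivial V] {g : f.Isom} {c : F} (h : IsNilpotent (g.1.toLinearMap - c • 1)) :
    c * K.σ c = 1 := by
  have h1 := nilp_ad hf h
  rw [ad_sub, ad_isom, ad_smul, ad_one] at h1
  have h2 : IsNilpotent ((1 - c * K.σ c) • (1 : End F V)) := by
    have : (1 - c * K.σ c) • (1 : End F V) = (g.1.toLinearMap - c • 1) * (g⁻¹).1.toLinearMap +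
        c • ((g⁻¹).1.toLinearMap - K.σ c • 1) := by
      ext; simp [sub_smul, smul_sub, mul_smul]
    rw [this]
    exact Commute.isNilpotent_add (by ext; simp [smul_sub, smul_smul, mul_comm]; abel)
      (Commute.isNilpotent_mul_right (by ext; simp) h) (h1.smul c)
  by_contra e
  exact h2.not_isUnit ((sub_ne_zero.2 (Ne.symm e)).isUnit.map (algebraMap F (End F V)))

end Forms
end H4
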