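import Cfsg.Agent.H4.RsA

/-! Unitary structures from elements of order three; `SU₂ ≅ SL₂`. -/

set_option autoImplicit false

universe u
namespace H4
open Module Form Submodule

section Three
variable {F : Type*} [Field F]
local notation "𝕂" => QuadraticAlgebra F (-1) (-1)

theorem cent_three [Fintype F] {q : ℕ} (hF : Fintype.card F = q)
    (hq : q % 3 = 2) {V : Type u} [AddCommGroup V] [Module F V] [FiniteDimensional F V]
    {f : Form (altKind F) V} (hf : f.ND) {m : ℕ} (hn : finrank F V = 2 * m) (x : f.Isom)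
    (hx : ∀ v, x.1 (x.1 v) = -v - x.1 v) : Nat.card (Subgroup.centralizer {x}) =
      q ^ (m * (m - 1) / 2) *
        ∏ i ∈ Finset.range m, (if Even i then q ^ (i + 1) + 1 else q ^ (i + 1) - 1) := by
  have hk : q = 3 * (q / 3) + 2 := by omega
  haveI : Fact (∀ r : F, r ^ 2 ≠ -1 + -1 * r) := ⟨fun r h => by
    have h1 : r ^ 3 = 1 := by linear_combination (r - 1) * h
    have h2 := FiniteField.pow_card r
    have h3 := FiniteField.cast_card_eq_zero F
    rw [hF, hk] at h2 h3
    rw [pow_add, pow_mul, h1, one_pow, one_mul] at h2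
    push_cast at h3
    have h4 : (3 : F) = 0 := by linear_combination h - h2 - 2 * (h1 - (r + 1) * h2)
    rw [h4] at h3
    exact one_ne_zero (α := F) (by linear_combination h4 - h3)⟩
  letI : Fintype 𝕂 := .ofEquiv _ (QuadraticAlgebra.equivProd (-1 : F) (-1)).symm
  have hK : Fintype.card 𝕂 = q ^ 2 := by rw [Fintype.ofEquiv_card, Fintype.card_prod, hF, sq]
  have hσ : ∀ z : 𝕂, frobq hK z = ⟨z.re - z.im, -z.im⟩ := fun z => by
    have h1 : ∀ a : F, frobq hK (algebraMap F 𝕂 a) = algebraMap F 𝕂 a := fun a => by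
      rw [frobq_apply, ← map_pow, ← hF, FiniteField.pow_card]
    have h2 : (QuadraticAlgebra.omega : 𝕂) ^ 3 = 1 := by ext <;> simp [pow_succ] <;> rfl
    have h3 : z = algebraMap F 𝕂 z.re + algebraMap F 𝕂 z.im * QuadraticAlgebra.omega := by
      ext <;> simp
    conv_lhs => rw [h3, map_add, map_mul, h1, h1, frobq_apply, hk, pow_add, pow_mul, h2]
    ext <;> simp [pow_succ, sub_eq_add_neg]
  let φ : 𝕂 →ₐ[F] End F V := QuadraticAlgebra.lift ⟨x.1.toLinearMap, by
    ext v; simp [hx, sub_eq_add_neg]⟩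
  letI : Module 𝕂 V := Module.compHom V φ.toRingHom
  have hs : ∀ (k : 𝕂) (v : V), k • v = k.re • v + k.im • x.1 v := fun _ _ => rfl
  haveI : IsScalarTower F 𝕂 V := ⟨fun a k v => by simp [hs, mul_smul]⟩
  let h : V → V → 𝕂 := fun u v => ⟨f.B u (x.1 v) + f.B u v, f.B u v⟩
  have h1 : ∀ u v, frobq hK (h u v) = h v u := fun u v => by
    rw [hσ]
    ext
    · have e := isom_B x (x.1 v) u
      simp only [hx, map_sub, map_neg, LinearMap.sub_apply, LinearMap.neg_apply] at e
      have e1 := isom_B x v u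
      have e2 := f.symm (x.1 v) u
      simp only [altKind_ε, altKind_σ] at e2
      simp only [h]
      linear_combination e2 + e + e1
    · simp [h, f.symm u v]
  have h2 : ∀ (c : 𝕂) u v, h u (c • v) = c • h u v := fun c u v => by
    ext <;> simp [h, hs, hx] <;> ring
  let g := hermForm _ (frobq_ne_id hK) (frobq_frobq hK) (LinearMap.mk₂'ₛₗ (frobq hK) (RingHom.id 𝕂) h
    (fun _ _ _ => by ext <;> simp [h]; ring)
    (fun c u v => by rw [← h1, h2, smul_eq_mul, map_mul, h1, smul_eq_mul])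
    (fun _ _ _ => by ext <;> simp [h]; ring) h2) h1
  haveI : FiniteDimensional 𝕂 V := Module.Finite.of_restrictScalars_finite F 𝕂 V
  rw [← u_card_Isom m V g (fun u hu => hf u fun v => congrArg QuadraticAlgebra.im (hu v)) (by
    have := finrank_mul_finrank F 𝕂 V
    rw [finrank_two hK hF, hn] at this; omega)]
  refine (Nat.card_congr (Equiv.ofBijective (fun a : g.Isom => (⟨⟨a.1.restrictScalars F,
    (alt_mem_Isom _).2 fun u v => congrArg QuadraticAlgebra.im (isom_B a u v)⟩,
    Subgroup.mem_centralizer_singleton_iff.2 (Subtype.ext (LinearEquiv.ext fun v => by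
      simpa [hs] using a.1.map_smul QuadraticAlgebra.omega v))⟩ : Subgroup.centralizer {x}))
    ⟨fun a b e => Subtype.ext (LinearEquiv.ext fun v =>
      LinearEquiv.congr_fun (congrArg (fun z => z.1.1) e) v), fun a => ?_⟩)).symm
  have h3 : ∀ v, a.1.1 (x.1 v) = x.1 (a.1.1 v) := LinearEquiv.congr_fun
    (congrArg Subtype.val (Subgroup.mem_centralizer_singleton_iff.1 a.2))
  refine ⟨⟨{ a.1.1.toAddEquiv with map_smul' := fun c v => by simp [hs, h3] },
    (herm_mem_Isom _).2 fun u v => ?_⟩, rfl⟩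
  change h (a.1.1 u) (a.1.1 v) = h u v
  simp only [h, ← h3, isom_B]

end Three

theorem su_two {F K : Type*} [Field F] [Fintype F] [Field K] [Fintype K] {q : ℕ}
    (hF : Fintype.card F = q ^ 2) (hK : Fintype.card K = q) :
    Nonempty (Matrix.SpecialLinearGroup (Fin 2) K ≃* (uForm hF 2).SI) := by
  obtain ⟨j, hj⟩ := exists_sub hF hK
  obtain ⟨ω, hω⟩ := DFunLike.ne_iff.1 (frobq_ne_id hF)
  let σ := frobq hF
  have hσ : ∀ a, σ (σ a) = a := frobq_frobq hF
  have hθ : σ ω - ω ≠ 0 := sub_ne_zero.2 hω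
  let g := hermForm _ (frobq_ne_id hF) hσ (LinearMap.mk₂'ₛₗ σ (RingHom.id F)
    (fun x y : Fin 2 → F => (σ ω - ω) * (σ (x 0) * y 1 - σ (x 1) * y 0)) (by intros; simp; ring)
    (by intros; simp; ring) (by intros; simp; ring) (by intros; simp; ring))
    (fun x y => by change σ ((_ - _) * _) = (_ - _) * _; simp [hσ]; ring)
  have hB : ∀ x y, g.B x y = (σ ω - ω) * (σ (x 0) * y 1 - σ (x 1) * y 0) := fun _ _ => rfl
  obtain ⟨e, he⟩ := u_exists_isIso 2 _ _ g (uForm hF 2) (fun x hx => by
    have h0 := hx ![1, 0]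
    have h1 := hx ![0, 1]
    simp [hB, hθ] at h0 h1
    ext i; fin_cases i <;> assumption) (uForm_ND hF 2) (by simp) (by simp)
  have hj' : ∀ a, σ (j a) = j a := fun a => (hj _).2 ⟨a, rfl⟩
  let χ : Matrix.SpecialLinearGroup (Fin 2) K →* g.Isom := (glEquiv.toMonoidHom.comp
    (Matrix.SpecialLinearGroup.toGL.comp (Matrix.SpecialLinearGroup.map j))).codRestrict _ fun a =>
      (herm_mem_Isom _).2 fun x y => by
        have := congrArg j a.2
        rw [Matrix.det_fin_two] at this
        simp [hB, Matrix.mulVec, dotProduct, hj', hθ] at this ⊢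
        linear_combination (σ (x 0) * y 1 - σ (x 1) * y 0) * this
  refine ⟨MulEquiv.ofBijective ((he.isomEquiv.toMonoidHom.comp χ).codRestrict _ fun a =>
    (det_linConj e _).trans ((det_glEquiv _).trans (Units.ext (by simp)))) ⟨fun a b k => ?_, fun a => ?_⟩⟩
  · have := glEquiv.injective (congrArg Subtype.val (he.isomEquiv.injective (congrArg Subtype.val k)))
    ext r s
    exact j.injective (congrArg (fun z : GL (Fin 2) F => z.1 r s) this)
  · obtain ⟨a, ha⟩ := a
    obtain ⟨⟨a, h1⟩, rfl⟩ := he.isomEquiv.surjective a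
    obtain ⟨a, rfl⟩ := glEquiv.surjective a
    have h2 : a.1.det = 1 :=
      congrArg Units.val ((det_glEquiv a).symm.trans ((det_linConj e _).symm.trans ha))
    have h3 := h1.1 ![1, 0] ![1, 0]
    have h4 := h1.1 ![1, 0] ![0, 1]
    have h5 := h1.1 ![0, 1] ![1, 0]
    have h6 := h1.1 ![0, 1] ![0, 1]
    simp only [hB, mul_right_inj' hθ] at h3 h4 h5 h6
    simp [Matrix.mulVec, dotProduct] at h3 h4 h5 h6
    have h7 := (Matrix.det_fin_two _).symm.trans h2
    obtain ⟨b, hb⟩ := Au.exists_map (σ := Au.frobE hF) hj (M := a.1) (by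
      ext r s
      change σ _ = _
      fin_cases r <;> fin_cases s <;> simp
      · linear_combination a.1 0 0 * h4 - a.1 0 1 * h3 - σ (a.1 0 0) * h7
      · linear_combination a.1 0 0 * h6 - a.1 0 1 * h5 - σ (a.1 0 1) * h7
      · linear_combination a.1 1 0 * h4 - a.1 1 1 * h3 - σ (a.1 1 0) * h7
      · linear_combination a.1 1 0 * h6 - a.1 1 1 * h5 - σ (a.1 1 1) * h7)
    exact ⟨⟨b, j.injective (by rw [RingHom.map_det, map_one, ← h2, ← hb]; rfl)⟩,
      Subtype.ext (congrArg he.isomEquiv (Subtype.ext (congrArg glEquiv (Units.ext hb))))⟩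

end H4
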