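import Cfsg.Agent.H4.RgA
import Cfsg.Agent.H4.WaB

/-! Transvections: classes and centralisers. -/

set_option autoImplicit false

universe u
namespace H4
open Module Form Submodule

section A
variable {F : Type*} [Field F] {V : Type u} [AddCommGroup V] [Module F V] [FiniteDimensional F V]

lemma cent_det_of_lt {t : V ≃ₗ[F] V} (h : 2 * rk t < finrank F V) (c : Fˣ) :
    ∃ g : V ≃ₗ[F] V, g * t = t * g ∧ LinearEquiv.det g = c := by
  have h3 := LinearMap.finrank_range_add_finrank_ker (nil t)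
  obtain ⟨w, h1, h2⟩ := SetLike.not_le_iff_exists.1 fun e : LinearMap.ker (nil t) ≤
    LinearMap.range (nil t) => by have := finrank_mono e; rw [rk] at h; omega
  obtain ⟨φ, h4, h5⟩ := exists_dual_eq h2 (c - 1)
  refine ⟨LinearEquiv.dilatransvection (f := φ) (v := w) (by simp [h5]), comm_iff_nil.2 fun y => ?_,
    Units.ext ?_⟩
  · simp [LinearEquiv.dilatransvection.apply, h4 _ ⟨y, rfl⟩, LinearMap.mem_ker.1 h1]
  · simp [LinearEquiv.coe_det, h5]

lemma exists_tv {t : V ≃ₗ[F] V} (h : rk t = 1) (h2 : ∀ x, nil t (nil t x) = 0) :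
    ∃ (φ : V →ₗ[F] F) (u x : V), u ≠ 0 ∧ φ u = 0 ∧ φ x = 1 ∧ ∀ y, t y = y + φ y • u := by
  obtain ⟨⟨u, x, rfl⟩, h0, h1⟩ := finrank_eq_one_iff'.1 h
  have h0' : nil t x ≠ 0 := fun e => h0 (Subtype.ext e)
  have h3 : ∀ y, nil t y ∈ F ∙ nil t x := fun y => by
    obtain ⟨c, hc⟩ := h1 ⟨_, y, rfl⟩
    exact mem_span_singleton.2 ⟨c, congrArg Subtype.val hc⟩
  have h4 : ∀ y, ((LinearEquiv.coord F V _ h0').toLinearMap ∘ₗ (nil t).codRestrict _ h3) y •
    nil t x = nil t y := fun y => LinearEquiv.coord_apply_smul F V _ h0' ⟨_, h3 y⟩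
  refine ⟨_, _, x, h0', smul_left_injective F h0' ((h4 _).trans (by simp [h2])),
    smul_left_injective F h0' ((h4 _).trans (by simp)), fun y => ?_⟩
  rw [h4, nil_apply, add_sub_cancel]

lemma card_cent_tv [Finite F] {t : V ≃ₗ[F] V} (h : rk t = 1) (h2 : ∀ x, nil t (nil t x) = 0)
    {n : ℕ} (hn : finrank F V = n + 2) : Nat.card (Subgroup.centralizer {t}) =
    (Nat.card F ^ (n + 2) - Nat.card F ^ (n + 1)) *
      (Nat.card F ^ n * ∏ i : Fin n, (Nat.card F ^ n - Nat.card F ^ (i : ℕ))) := by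
  obtain ⟨φ, u, x, h0, hu, hx, ht⟩ := exists_tv h h2
  let H := LinearMap.ker φ
  have hH : finrank F H = n + 1 := by
    have := LinearMap.finrank_range_add_finrank_ker φ
    rw [LinearMap.range_eq_top.2 fun c => ⟨c • x, by simp [hx]⟩] at this
    simp only [finrank_top, finrank_self, hn] at this
    exact Nat.add_left_cancel (this.trans (by ring))
  let u' : H := ⟨u, hu⟩
  have h1 := card_glFix (F ∙ u') (d := n) (finrank_span_singleton fun e => h0 (congrArg Subtype.val e))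
    (hH.trans (add_comm _ _))
  have h3 := card_diff (le_top (a := H))
  rw [finrank_top, hn, hH] at h3
  rw [one_mul] at h1
  rw [← h3, ← h1, ← Nat.card_prod]
  let π : V →ₗ[F] H := (LinearMap.id - φ.smulRight x).codRestrict _ fun y => by simp [H, hx]
  have hπ : ∀ y, (π y : V) = y - φ y • x := fun _ => rfl
  have hπ' : ∀ y : H, π y = y := fun y => Subtype.ext (by simp [hπ, LinearMap.mem_ker.1 y.2])
  have hπx : π x = 0 := Subtype.ext (by simp [hπ, hx])
  let L : V → (H ≃ₗ[F] H) → End F V := fun y k =>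
    φ.smulRight y + φ y • (H.subtype ∘ₗ k.toLinearMap ∘ₗ π)
  have hL : ∀ y k z, L y k z = φ z • y + φ y • (k (π z) : V) := fun _ _ _ => rfl
  have hφ : ∀ z : H, φ z = 0 := fun z => z.2
  have hi : ∀ y k, φ y ≠ 0 → Function.Injective (L y k) := fun y k hy =>
    (injective_iff_map_eq_zero _).2 fun z hz => by
      have e1 : φ z = 0 := by simpa [hL, hφ, hy] using congrArg φ hz
      have e2 : π z = 0 := by simpa [hL, e1, hy] using hz
      simpa [hπ, e1] using congrArg Subtype.val e2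
  refine (Nat.card_congr (Equiv.ofBijective (fun p => (⟨LinearEquiv.ofInjectiveEndo _
    (hi p.1.1 p.2.1 p.1.2.2), Subgroup.mem_centralizer_singleton_iff.2 (LinearEquiv.ext fun z => ?_)⟩ :
      Subgroup.centralizer {t})) ⟨fun p p' e => ?_, fun g => ?_⟩)).symm
  · have : p.2.1 (π u) = u' := (congrArg _ (hπ' u')).trans (p.2.2 _ (mem_span_singleton_self _))
    change L _ _ (t z) = t (L _ _ z)
    rw [ht, ht, map_add, map_smul, hL _ _ u, this]
    simp [hL, hφ, hu, u', mul_smul]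
  · have e1 : ∀ z, L p.1.1 p.2.1 z = L p'.1.1 p'.2.1 z :=
      LinearEquiv.congr_fun (congrArg Subtype.val e)
    have e2 : p.1.1 = p'.1.1 := by simpa [hL, hx, hπx] using e1 x
    refine Prod.ext (Subtype.ext e2) (Subtype.ext (LinearEquiv.ext fun z => Subtype.ext ?_))
    have := e1 z
    rw [hL, hL, e2, add_right_inj, hπ'] at this
    exact smul_right_injective V p'.1.2.2 this
  · have e1 : ∀ z, g.1 (t z) = t (g.1 z) :=
      LinearEquiv.congr_fun (Subgroup.mem_centralizer_singleton_iff.1 g.2)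
    have e2 : g.1 u = φ (g.1 x) • u := by simpa [ht, hx] using e1 x
    have e3 : φ (g.1 x) ≠ 0 := fun e => h0 (by simpa [e] using e2)
    have e4 : ∀ z, φ (g.1 z) = φ z * φ (g.1 x) := fun z => smul_left_injective F h0 (by
      simpa [ht, e2, smul_smul] using (e1 z).symm)
    let k : End F H := ((φ (g.1 x))⁻¹ • g.1.toLinearMap).restrict (p := H) (q := H) fun z hz => by
      simp [H, e4 z, LinearMap.mem_ker.1 hz]
    have hk : ∀ z, (k z : V) = (φ (g.1 x))⁻¹ • g.1 z := fun _ => rfl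
    refine ⟨⟨⟨g.1 x, trivial, e3⟩, LinearEquiv.ofInjectiveEndo k ((injective_iff_map_eq_zero _).2
      fun z hz => by simpa [hk, e3] using congrArg Subtype.val hz), fun z hz => ?_⟩,
      Subtype.ext (LinearEquiv.ext fun z => ?_)⟩
    · obtain ⟨c, rfl⟩ := mem_span_singleton.1 hz
      exact Subtype.ext ((hk _).trans (by simp [u', e2, smul_smul]; congr 1; field_simp))
    · change φ z • g.1 x + φ (g.1 x) • (k (π z) : V) = _
      simp [hk, hπ, smul_smul, e3]

lemma tv_iff {ι : Type} [Fintype ι] [DecidableEq ι] {t : (ι → F) ≃ₗ[F] (ι → F)} {M : Matrix ι ι F}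
    (h : ∀ v, t v = M.mulVec v) (hM : Cfsg.IsTransvection M) :
    rk t = 1 ∧ ∀ x, nil t (nil t x) = 0 := by
  obtain ⟨h1, h2⟩ := rk_eq_rank h
  exact ⟨h1.trans hM.1, fun x => by
    rw [h2, Matrix.mulVecLin_apply, Matrix.mulVecLin_apply, Matrix.mulVec_mulVec, hM.2,
      Matrix.zero_mulVec]⟩

end A

section U
variable {F : Type*} [Field F] [Fintype F] {q : ℕ} {hF : Fintype.card F = q ^ 2}
  {V : Type u} [AddCommGroup V] [Module F V] [FiniteDimensional F V] {f : Form (uKind hF) V}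

lemma u_exists_dil {v : V} (hv : f.Q v = 1) {c : F} (hc : c ^ (q + 1) = 1) :
    ∃ g, (f.idet g : F) = c ∧ ∀ a : f.Isom, a.1 v = v → g * a = a * g := by
  by_cases h1 : c = 1
  · exact ⟨1, by simp [h1]⟩
  have hvv : f.B v v = 1 := by rw [← herm_Q, hv]
  have h2 : 1 - c ≠ 0 := sub_ne_zero.2 (Ne.symm h1)
  have h3 : 1 - c ^ q ≠ 0 := by
    have := (map_ne_zero (frobq hF)).2 h2
    rwa [map_sub, map_one, frobq_apply] at this
  obtain ⟨g, hg⟩ := exists_isTau (f := f) (u := v) (s := (1 - c)⁻¹) (inv_ne_zero h2) (by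
    rw [hv, hermKind_T, map_inv₀, map_sub, map_one, frobq_apply]
    field_simp
    rw [pow_succ] at hc
    linear_combination -hc)
  refine ⟨g, by rw [hg.det, hvv]; simp, fun a ha => ?_⟩
  have := hg.conj a
  rw [ha] at this
  exact (mul_inv_eq_iff_eq_mul.1 (this.ext hg)).symm

theorem su_conj_of_lt (hf : f.ND) {t t' : f.Isom} (hc : IsConj t t') (h : 2 * rk t.1 < finrank F V) :
    ∃ g ∈ f.SI, g * t = t' * g := by
  obtain ⟨g, rfl⟩ := isConj_iff.1 hc
  have h1 := hf.finrank_perp (LinearMap.range (nil t.1))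
  obtain ⟨v, h2, h3⟩ : ∃ v ∈ f.perp (LinearMap.range (nil t.1)), f.Q v ≠ 0 := by
    by_contra! h2
    have h3 : f.perp (LinearMap.range (nil t.1)) ≤ f.perp (f.perp (LinearMap.range (nil t.1))) :=
      fun y hy x hx => by
        by_contra e
        obtain ⟨s, hs⟩ := exists_trace_eq_q hF (μ := 1) (one_pow q)
        have := f.Q_add x ((s / f.B x y) • y)
        rw [h2 _ (add_mem hx (smul_mem _ _ hy)), h2 x hx, h2 _ (smul_mem _ _ hy), map_smul,
          smul_eq_mul, div_mul_cancel₀ _ e] at this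
        simp [hs] at this
    have := finrank_mono h3
    rw [hf.perp_perp, rk] at *
    omega
  obtain ⟨a, ha⟩ := exists_norm_eq hF (μ := 1 / f.Q v) (by rw [div_pow, one_pow, u_Q_fixed])
  obtain ⟨k, h4, h5⟩ := u_exists_dil (f := f) (v := a • v)
    (by rw [u_Q_smul, ha, div_mul_cancel₀ _ h3]) ((pow_succ' _ _).trans (idet_norm hf g⁻¹))
  rw [perp_range_nil hf, LinearMap.mem_ker, nil_apply, sub_eq_zero] at h2
  refine ⟨g * k, f.mem_SI.2 (by simp [h4]), ?_⟩
  rw [mul_assoc, h5 t (by rw [map_smul, h2])]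
  simp [mul_assoc]

end U
end H4
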